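import Cfsg.Prelude.Def_LocalEven
import Cfsg.Agent.S0333
import Cfsg.Agent.SuzukiAut.Out
import Cfsg.Agent.Suzuki.SolvablePairs
import Cfsg.Agent.CharTwo.AutPSLTwoSylow
import Cfsg.Agent.Linear.ClassesPSL
import Cfsg.Agent.Linear.SmallIso
import Cfsg.Agent.Arith.Zsigmondy
import Cfsg.Agent.Fusion.Basic

/-!
Elementary abelian 2-groups of automorphisms of `Sz(q)` and `PSL(2, 3^odd)`: one of their elements
inverts an element of a prime order having large multiplicative order of two.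
-/

set_option autoImplicit false
set_option linter.unusedSectionVars false
set_option linter.style.haveILetI false

namespace Cfsg.Agent.TwoF

open Subgroup Matrix
open scoped MatrixGroups

universe u v

/-- What is needed from a group `E` of automorphisms of `X`. -/
def AutWit {X : Type u} [Group X] (E : Subgroup (MulAut X)) : Prop :=
  ∃ (e r : ℕ) (x : X), 0 < e ∧ Nat.card E = 2 ^ e ∧ r.Prime ∧ r ≠ 2 ∧ orderOf x = r ∧
    (∃ a ∈ E, a x = x⁻¹) ∧ ∀ k, 0 < k → r ∣ 2 ^ k - 1 → 4 * e ≤ k + 1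

theorem conj_injective {X : Type u} [Group X] [IsSimpleGroup X] (hnc : ¬ IsMulCommutative X) :
    Function.Injective (MulAut.conj : X →* MulAut X) := by
  rw [← MonoidHom.ker_eq_bot_iff]
  refine (Subgroup.Normal.eq_bot_or_eq_top inferInstance).resolve_right fun h => hnc ⟨⟨fun x y => ?_⟩⟩
  exact mul_inv_eq_iff_eq_mul.1 (DFunLike.congr_fun (MonoidHom.mem_ker.1 (h.ge (mem_top x))) y :)

/-- An automorphism group transported along an isomorphism. -/
theorem autWit_of_equiv {X : Type u} [Group X] {Y : Type v} [Group Y] (f : X ≃* Y)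
    {E : Subgroup (MulAut X)} (h : AutWit (E.map (MulAut.congr f).toMonoidHom)) : AutWit E := by
  obtain ⟨e, r, y, he, hc, hr, hr2, hy, ⟨a, ⟨a', ha', rfl⟩, hay⟩, hk⟩ := h
  refine ⟨e, r, f.symm y, he, ?_, hr, hr2, ?_, ⟨a', ha', ?_⟩, hk⟩
  · rwa [card_map_of_injective (MulAut.congr f).injective] at hc
  · rwa [f.symm.orderOf_eq]
  · apply f.injective
    rw [map_inv, f.apply_symm_apply]
    exact hay

section Suzuki

open Cfsg.Agent.Suzuki

variable {F : Type v} [Field F] [Fintype F] {m : ℕ} [hS : SuzukiField F m]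

theorem sz_elementary_card (E : Subgroup (Cfsg.Sz F m)) (hE2 : IsPGroup 2 E)
    (hE : ∀ x ∈ E, x * x = 1) : Nat.card E ≤ Fintype.card F := by
  haveI : Fact (Nat.Prime 2) := ⟨Nat.prime_two⟩
  obtain ⟨P, hP⟩ := hE2.exists_le_sylow
  obtain ⟨g, hg⟩ := MulAction.exists_smul_eq (Cfsg.Sz F m) P (unipSylow F m)
  have hle : E.map (MulAut.conj g).toMonoidHom ≤ unipZ F m := by
    rintro _ ⟨x, hx, rfl⟩
    have h1 : g * x * g⁻¹ ∈ unip F m := by
      rw [← coe_unipSylow, ← hg, Cfsg.Agent.Fusion.coe_smul_sylow]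
      exact ⟨x, hP hx, rfl⟩
    show g * x * g⁻¹ ∈ unipZ F m
    rcases eq_or_ne x 1 with rfl | hx1
    · rw [mul_one, mul_inv_cancel]; exact one_mem _
    have h2 : orderOf (g * x * g⁻¹) = 2 := by
      rw [Suzuki.orderOf_conj]
      exact orderOf_eq_prime (by rw [sq]; exact hE x hx) hx1
    obtain ⟨a, b, hab⟩ := h1
    obtain ⟨c, -, hc⟩ := involution_eq_gT h2 (hab ▸ gT_smul_oInf a b)
    exact ⟨c, hc⟩
  have h := card_le_of_le hle
  rwa [card_map_of_injective (MulAut.conj g).injective, card_unipZ] at h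

theorem sz_autWit [Finite (Cfsg.Sz F m)] [IsSimpleGroup (Cfsg.Sz F m)]
    (hnc : ¬ IsMulCommutative (Cfsg.Sz F m)) (hm : 1 ≤ m) (hF : Fintype.card F = 2 ^ (2 * m + 1))
    (E : Subgroup (MulAut (Cfsg.Sz F m))) (hE : ∀ a ∈ E, a * a = 1) (hne : E ≠ ⊥) : AutWit E := by
  classical
  haveI : Fact (Nat.Prime 2) := ⟨Nat.prime_two⟩
  have hp : IsPGroup 2 E := fun a => ⟨1, Subtype.ext (by
    show (a : MulAut (Cfsg.Sz F m)) ^ 2 ^ 1 = 1
    rw [pow_one, sq]; exact hE a a.2)⟩
  obtain ⟨e, he⟩ := IsPGroup.iff_card.1 hp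
  have he0 : 0 < e := by
    rcases Nat.eq_zero_or_pos e with rfl | h
    · exact absurd (Subgroup.card_eq_one.1 (by rw [he, pow_zero])) hne
    · exact h
  -- `E` is inner
  have hinn : E ≤ Cfsg.Inn (Cfsg.Sz F m) := by
    intro a ha
    haveI : Finite (MulAut (Cfsg.Sz F m)) := inferInstance
    have h1 : orderOf (QuotientGroup.mk a : Cfsg.Out (Cfsg.Sz F m)) ∣ 2 :=
      (orderOf_map_dvd (QuotientGroup.mk' (Cfsg.Inn (Cfsg.Sz F m))) a).trans
        (orderOf_dvd_of_pow_eq_one (by rw [sq]; exact hE a ha))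
    have h2 : orderOf (QuotientGroup.mk a : Cfsg.Out (Cfsg.Sz F m)) ∣ 2 * m + 1 := by
      rw [← SuzukiAut.card_out_sz (F := F) (m := m)]; exact orderOf_dvd_natCard _
    have h3 : orderOf (QuotientGroup.mk a : Cfsg.Out (Cfsg.Sz F m)) = 1 :=
      Nat.dvd_one.1 ((Nat.dvd_gcd h1 h2).trans (by
        rw [Nat.coprime_two_left.2 ⟨m, rfl⟩ |>.gcd_eq_one]))
    exact (QuotientGroup.eq_one_iff a).1 (orderOf_eq_one_iff.1 h3)
  set E' := E.comap (MulAut.conj : Cfsg.Sz F m →* MulAut (Cfsg.Sz F m))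
  have hmap : E'.map (MulAut.conj : Cfsg.Sz F m →* MulAut (Cfsg.Sz F m)) = E :=
    map_comap_eq_self fun a ha => hinn ha
  have hinj := conj_injective (X := Cfsg.Sz F m) hnc
  have hE' : ∀ x ∈ E', x * x = 1 := fun x hx => hinj (by rw [map_mul, map_one]; exact hE _ hx)
  have hcard : Nat.card E' = 2 ^ e := by
    rw [← he, ← hmap, card_map_of_injective hinj]
  have hle : e ≤ 2 * m + 1 := by
    have h := sz_elementary_card E' (IsPGroup.of_card hcard) hE'
    rw [hcard, hF] at h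
    exact (Nat.pow_le_pow_iff_right (by norm_num)).1 h
  -- the prime
  set n := 2 * m + 1 with hn
  obtain ⟨r, hr, hord⟩ := Arith.exists_prime_orderOf_eq (a := 2) (n := 4 * n) (by norm_num)
    (by omega) (by omega) (by omega)
  haveI : Fact r.Prime := ⟨hr⟩
  have hdiv : ∀ k, r ∣ 2 ^ k - 1 → 4 * n ∣ k := fun k hk => by
    have := (Arith.dvd_pow_sub_one_iff_orderOf_dvd (a := 2) (by norm_num) k).1 hk
    rwa [hord] at this
  have hr4 : r ∣ 2 ^ (4 * n) - 1 :=
    (Arith.dvd_pow_sub_one_iff_orderOf_dvd (a := 2) (by norm_num) _).2 (by rw [hord])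
  have hr2 : r ≠ 2 := by
    rintro rfl
    have h := Nat.one_le_two_pow (n := 4 * n)
    have h' : 2 ∣ 2 ^ (4 * n) := dvd_pow_self 2 (by omega)
    omega
  have hq1 : r ∣ 2 ^ (2 * n) + 1 := by
    have e1 : 2 ^ (4 * n) - 1 = (2 ^ (2 * n) + 1) * (2 ^ (2 * n) - 1) := by
      rw [show 4 * n = 2 * n + 2 * n by ring, pow_add, ← Nat.sq_sub_sq, sq, one_pow]
    rw [e1] at hr4
    refine (hr.dvd_mul.1 hr4).resolve_right fun h => ?_
    have := Nat.le_of_dvd (by omega) (hdiv _ h)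
    omega
  obtain ⟨k, hk, hrk⟩ : ∃ k ∈ ({2 ^ n + 2 ^ (m + 1) + 1, 2 ^ n - 2 ^ (m + 1) + 1} : Set ℕ), r ∣ k := by
    have hs : 2 ^ (m + 1) ≤ 2 ^ n := Nat.pow_le_pow_right two_pos (by omega)
    have hsq : 2 ^ (m + 1) * 2 ^ (m + 1) = 2 * 2 ^ n := by
      rw [← pow_add, ← pow_succ']; congr 1; omega
    have e2 : 2 ^ (2 * n) + 1 = (2 ^ n + 2 ^ (m + 1) + 1) * (2 ^ n - 2 ^ (m + 1) + 1) := by
      obtain ⟨d, hd⟩ := Nat.exists_eq_add_of_le hs
      rw [hd, Nat.add_sub_cancel_left, show 2 ^ (2 * n) = 2 ^ n * 2 ^ n by rw [← pow_add]; congr 1; ring, hd]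
      rw [hd] at hsq
      nlinarith [hsq]
    rw [e2] at hq1
    rcases hr.dvd_mul.1 hq1 with h | h
    · exact ⟨_, Or.inl rfl, h⟩
    · exact ⟨_, Or.inr rfl, h⟩
  obtain ⟨U, hUc, hUk, hUcent, hUN⟩ := S0333.result hm hF k hk
  obtain ⟨⟨u, hu⟩, huo⟩ := exists_prime_orderOf_dvd_card' (G := U) r (by rwa [hUk])
  rw [Subgroup.orderOf_mk] at huo
  obtain ⟨⟨t, htN⟩, hto⟩ := exists_prime_orderOf_dvd_card'
    (G := normalizer (U : Set (Cfsg.Sz F m))) 2 (by rw [hUN]; exact Dvd.intro (2 * k) (by ring))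
  rw [Subgroup.orderOf_mk] at hto
  have hUodd : Odd (Nat.card U) := by
    rw [hUk]
    have h1 : Even (2 ^ n) := Nat.even_pow.2 ⟨even_two, by omega⟩
    have h2 : Even (2 ^ (m + 1)) := Nat.even_pow.2 ⟨even_two, by omega⟩
    rcases hk with rfl | rfl
    · exact (h1.add h2).add_one
    · exact ((Nat.even_sub (Nat.pow_le_pow_right two_pos (by omega))).2 (by simp [h1, h2])).add_one
  have htu : t * u * t⁻¹ = u⁻¹ := by
    have htt : t * t = 1 := by rw [← sq, ← hto]; exact pow_orderOf_eq_one t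
    have htu' : t * u * t⁻¹ ∈ U := (mem_normalizer_iff.1 htN u).1 hu
    have hcomm : ∀ x ∈ U, ∀ y ∈ U, x * y = y * x := fun x hx y hy => by
      haveI := hUc
      exact congrArg Subtype.val ((IsCyclic.commGroup (α := U)).mul_comm ⟨x, hx⟩ ⟨y, hy⟩)
    by_contra hne'
    have hz : u * (t * u * t⁻¹) ≠ 1 := fun h => hne' (eq_inv_of_mul_eq_one_right h)
    have hfix : t ∈ centralizer ({u * (t * u * t⁻¹)} : Set (Cfsg.Sz F m)) := by
      rw [mem_centralizer_singleton_iff, ← mul_inv_eq_iff_eq_mul, hcomm u hu _ htu']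
      calc t * (t * u * t⁻¹ * u) * t⁻¹ = t * t * u * (t * t)⁻¹ * (t * u * t⁻¹) := by group
        _ = u * (t * u * t⁻¹) := by rw [htt]; group
        _ = _ := hcomm u hu _ htu'
    rw [hUcent _ (U.mul_mem hu htu') hz] at hfix
    have h2 : 2 ∣ Nat.card U := hto ▸ Subgroup.orderOf_dvd_natCard U hfix
    exact (Nat.not_even_iff_odd.2 hUodd) (even_iff_two_dvd.2 h2)
  obtain ⟨a, ha, ha1⟩ : ∃ a ∈ E', a ≠ 1 := by
    by_contra h
    push Not at h
    rw [E'.eq_bot_iff_forall.2 h, Subgroup.card_bot] at hcard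
    have := Nat.one_lt_two_pow he0.ne'
    omega
  obtain ⟨g, hg⟩ := Suzuki.involution_conj (orderOf_eq_prime (by rw [sq]; exact hE' a ha) ha1)
  obtain ⟨c, hc⟩ := Suzuki.involution_conj hto
  refine ⟨e, r, g * c⁻¹ * u * (g * c⁻¹)⁻¹, he0, he, hr, hr2, by rw [Suzuki.orderOf_conj, huo],
    ⟨MulAut.conj a, hmap.le ⟨a, ha, rfl⟩, ?_⟩, fun k' hk0 hd => ?_⟩
  · have e1 : a = g * c⁻¹ * t * (g * c⁻¹)⁻¹ := by rw [← hg, ← hc]; group
    rw [MulAut.conj_apply, e1]
    calc _ = g * c⁻¹ * (t * u * t⁻¹) * (g * c⁻¹)⁻¹ := by group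
      _ = _ := by rw [htu]; group
  · have := Nat.le_of_dvd hk0 (hdiv k' hd)
    omega

end Suzuki

section PSL

variable {F : Type v} [Field F] [Fintype F] {n : ℕ}

theorem no_small_order {f r : ℕ} (hf : Odd f) (hr : r.Prime) (h : (3 : ZMod r) ^ f = 1)
    (hr2 : r ≠ 2) {k : ℕ} (hk0 : 0 < k) (hk : r ∣ 2 ^ k - 1) : 7 ≤ k := by
  by_contra hlt
  obtain ⟨j, rfl⟩ := hf
  have key : ∀ d : ℕ, (3 : ZMod r) ^ d = 1 → (3 : ZMod r) ^ Nat.gcd (2 * j + 1) d = 1 := fun d hd =>
    pow_gcd_eq_one.2 ⟨h, hd⟩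
  have hodd : ∀ d, ¬ 2 ∣ Nat.gcd (2 * j + 1) d := fun d hd => by
    have := hd.trans (Nat.gcd_dvd_left _ _); omega
  have hr' : r = 3 ∨ r = 5 ∨ r = 7 ∨ r = 31 := by
    have hk' : r ∣ 3 ∨ r ∣ 7 ∨ r ∣ 15 ∨ r ∣ 31 ∨ r ∣ 63 ∨ r ∣ 1 := by
      interval_cases k <;> simp_all
    have := hr.two_le
    rcases hk' with h' | h' | h' | h' | h' | h' <;>
      · have := Nat.le_of_dvd (by norm_num) h'
        interval_cases r <;> revert hr h' <;> norm_num
  rcases hr' with rfl | rfl | rfl | rfl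
  · have h0 : (3 : ZMod 3) = 0 := rfl
    rw [h0, zero_pow (by omega)] at h
    exact zero_ne_one h
  · have h1 := key 4 (by decide)
    have hg := Nat.gcd_dvd_right (2 * j + 1) 4
    have hg' := hodd 4
    generalize Nat.gcd (2 * j + 1) 4 = g at h1 hg hg'
    have := Nat.le_of_dvd (by norm_num) hg
    interval_cases g <;> revert h1 hg hg' <;> decide
  · have h1 := key 6 (by decide)
    have hg := Nat.gcd_dvd_right (2 * j + 1) 6
    have hg' := hodd 6
    generalize Nat.gcd (2 * j + 1) 6 = g at h1 hg hg'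
    have := Nat.le_of_dvd (by norm_num) hg
    interval_cases g <;> revert h1 hg hg' <;> decide
  · have h1 := key 30 (by decide)
    have hg := Nat.gcd_dvd_right (2 * j + 1) 30
    have hg' := hodd 30
    generalize Nat.gcd (2 * j + 1) 30 = g at h1 hg hg'
    have := Nat.le_of_dvd (by norm_num) hg
    interval_cases g <;> revert h1 hg hg' <;> decide

theorem psl_autWit (hF : Fintype.card F = 3 ^ (2 * n + 1))
    [IsSimpleGroup (ProjectiveSpecialLinearGroup (Fin 2) F)]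
    (hnc : ¬ IsMulCommutative (ProjectiveSpecialLinearGroup (Fin 2) F))
    (E : Subgroup (MulAut (ProjectiveSpecialLinearGroup (Fin 2) F)))
    (hE : ∀ a ∈ E, a * a = 1) (h4 : 4 ≤ Nat.card E) : AutWit E := by
  classical
  haveI : Fact (Nat.Prime 2) := ⟨Nat.prime_two⟩
  haveI : Fact (Nat.Prime 3) := ⟨Nat.prime_three⟩
  have hodd : Odd (Fintype.card F) := hF ▸ Odd.pow (by decide)
  have h2 : (2 : F) ≠ 0 := Linear.two_ne_zero_of_odd_card hodd
  have hn : 1 ≤ n := by
    by_contra hn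
    obtain ⟨i⟩ := Linear.psl_two_three_iso (F := F) (by rw [hF, show n = 0 by omega]; rfl)
    haveI : Nontrivial (alternatingGroup (Fin 4)) := i.symm.toEquiv.nontrivial
    haveI : IsSimpleGroup (alternatingGroup (Fin 4)) :=
      IsSimpleGroup.isSimpleGroup_of_surjective i.toMonoidHom i.surjective
    haveI := alternatingGroup.characteristic_kleinFour (α := Fin 4) (by simp)
    haveI := Subgroup.normal_of_characteristic (alternatingGroup.kleinFour (Fin 4))
    have hk := alternatingGroup.kleinFour_card_of_card_eq_four (α := Fin 4) (by simp)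
    rcases Subgroup.Normal.eq_bot_or_eq_top
      (inferInstance : (alternatingGroup.kleinFour (Fin 4)).Normal) with h | h <;> rw [h] at hk
    · rw [Subgroup.card_bot] at hk; omega
    · rw [Subgroup.card_top, nat_card_alternatingGroup, Nat.card_fin] at hk
      norm_num [Nat.factorial] at hk
  have hq8 : Fintype.card F % 8 = 3 := by
    rw [hF, pow_succ, pow_mul, Nat.mul_mod, Nat.pow_mod]; norm_num
  have hq27 : 27 ≤ Fintype.card F := by
    rw [hF]; exact le_trans (by norm_num) (Nat.pow_le_pow_right (by norm_num) (show 3 ≤ 2 * n + 1 by omega))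
  have hEc : ∀ a ∈ E, ∀ b ∈ E, a * b = b * a := by
    intro a ha b hb
    have inv : ∀ x ∈ E, x⁻¹ = x := fun x hx => inv_eq_of_mul_eq_one_right (hE x hx)
    rw [← inv _ (E.mul_mem ha hb), _root_.mul_inv_rev, inv a ha, inv b hb]
  have hp : IsPGroup 2 E := fun a => ⟨1, Subtype.ext (by
    show (a : MulAut (ProjectiveSpecialLinearGroup (Fin 2) F)) ^ 2 ^ 1 = 1
    rw [pow_one, sq]; exact hE a a.2)⟩
  have hcard : Nat.card E = 4 := le_antisymm
    (CharTwo.AutPSLTwo.card_abelian_two_subgroup (Or.inl hq8) (by omega) E hp hEc) h4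
  -- an inner element of `E`
  have hinj := conj_injective (X := ProjectiveSpecialLinearGroup (Fin 2) F) hnc
  set R := (MulAut.conj : ProjectiveSpecialLinearGroup (Fin 2) F →*
      MulAut (ProjectiveSpecialLinearGroup (Fin 2) F)).range with hR
  have hindex : R.index = 2 * (2 * n + 1) := by
    have h1 := R.card_mul_index
    have hAut := S0813.result (F := F) 3 (2 * n + 1) (by omega) hF 2 le_rfl (fun _ => by
      rw [← hF]; omega)
    rw [if_pos rfl, one_mul, Linear.card_PGL_eq_card_SL] at hAut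
    rw [hR, ← Nat.card_congr (MonoidHom.ofInjective hinj).toEquiv, hAut,
      ← Linear.card_PSL_mul (F := F) (ι := Fin 2)] at h1
    rw [Fintype.card_fin, Linear.gcd_two_of_odd hodd] at h1
    refine Nat.eq_of_mul_eq_mul_left Nat.card_pos (h1.trans ?_)
    ring
  obtain ⟨b, hbE, hbR, hb1⟩ : ∃ b ∈ E, b ∈ R ∧ b ≠ 1 := by
    haveI : R.Normal := by
      refine ⟨?_⟩
      rintro _ ⟨x, rfl⟩ g
      exact ⟨g x, MulEquiv.ext fun y => by simp⟩
    set f := (QuotientGroup.mk' R).comp E.subtype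
    have h1 : Nat.card f.range ∣ 2 * (2 * n + 1) := hindex ▸ Subgroup.card_subgroup_dvd_card _
    have h2 : Nat.card f.range ∣ 4 := hcard ▸ Subgroup.card_range_dvd f
    have h3 : Nat.card f.range ≤ 2 := by
      have := Nat.dvd_gcd h2 h1
      rw [show (4 : ℕ) = 2 * 2 from rfl, Nat.gcd_mul_left,
        Nat.coprime_two_left.2 ⟨n, rfl⟩ |>.gcd_eq_one, mul_one] at this
      exact Nat.le_of_dvd two_pos this
    have h4' : f.ker ≠ ⊥ := by
      intro h
      have := Nat.card_congr (MonoidHom.ofInjective ((MonoidHom.ker_eq_bot_iff f).1 h)).toEquiv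
      omega
    obtain ⟨⟨b, hb⟩, hb1⟩ := Subgroup.ne_bot_iff_exists_ne_one.1 h4'
    refine ⟨b, b.2, (QuotientGroup.eq_one_iff _).1 hb, fun h => hb1 (Subtype.ext (Subtype.ext h))⟩
  obtain ⟨y, rfl⟩ := hbR
  have hy1 : y ≠ 1 := fun h => hb1 (by rw [h, map_one])
  have hy2 : y * y = 1 := hinj (by rw [map_mul, map_one]; exact hE _ hbE)
  obtain ⟨g, rfl⟩ := Linear.Classes.proj_surjective y
  have hgN : Linear.Classes.Nonscalar (g : Matrix (Fin 2) (Fin 2) F) :=
    not_not.1 fun h => hy1 (Linear.Classes.proj_eq_one_iff.2 h)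
  have htr : (g : Matrix (Fin 2) (Fin 2) F).trace = 0 := by
    rw [← map_mul, Linear.Classes.proj_eq_one_iff] at hy2
    obtain ⟨c, -, hc⟩ := Linear.Classes.scalar_SL hy2
    rw [Matrix.SpecialLinearGroup.coe_mul, Linear.Classes.cayley_hamilton] at hc
    by_contra ht
    refine hgN ((g : Matrix (Fin 2) (Fin 2) F).trace⁻¹ * (c + 1)) ?_
    rw [mul_smul, add_smul, one_smul, ← hc, sub_add_cancel, smul_smul, inv_mul_cancel₀ ht, one_smul]
  let w : SL(2, F) := ⟨!![0, 1; -1, 0], by simp [Matrix.det_fin_two_of]⟩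
  have hwN : Linear.Classes.Nonscalar (w : Matrix (Fin 2) (Fin 2) F) := fun c h => by
    have := congrFun (congrFun h 0) 1
    simp [w] at this
  obtain ⟨z, hz⟩ := isConj_iff.1 (Linear.Classes.isConj_SL_of_trace hwN hgN
    (by rw [htr]; simp [w, Matrix.trace_fin_two]) (Or.inr (by
      simp [w, Matrix.trace_fin_two]
      intro h4
      exact h2 (mul_self_eq_zero.1 (by linear_combination -h4 : (2 : F) * 2 = 0)))))
  -- the prime
  obtain ⟨t, ht⟩ : ∃ t, Fintype.card F = 2 * t + 1 ∧ Odd t := by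
    refine ⟨(Fintype.card F - 1) / 2, by omega, Nat.odd_iff.2 (by omega)⟩
  obtain ⟨r, hr, hrt⟩ := Nat.exists_prime_and_dvd (show t ≠ 1 by omega)
  haveI : Fact r.Prime := ⟨hr⟩
  have hr2 : r ≠ 2 := by
    rintro rfl
    exact (Nat.not_even_iff_odd.2 ht.2) (even_iff_two_dvd.2 hrt)
  obtain ⟨l, hl⟩ := exists_prime_orderOf_dvd_card' (G := Fˣ) r (by
    rw [Linear.card_units_eq]; exact hrt.trans ⟨2, by omega⟩)
  let d : SL(2, F) := ⟨!![(l : F), 0; 0, ((l⁻¹ : Fˣ) : F)], by simp [Matrix.det_fin_two_of]⟩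
  have hdo : orderOf (Linear.Classes.proj d) = r := by
    refine orderOf_eq_prime ?_ fun h => ?_
    · rw [← map_pow, show d ^ r = 1 from ?_, map_one]
      have hlr : l ^ r = 1 := hl ▸ pow_orderOf_eq_one l
      apply Subtype.ext
      rw [Matrix.SpecialLinearGroup.coe_pow, show (d : Matrix (Fin 2) (Fin 2) F) =
        Matrix.diagonal ![(l : F), ((l⁻¹ : Fˣ) : F)] by
          ext i j; fin_cases i <;> fin_cases j <;> simp [d], Matrix.diagonal_pow,
        Matrix.SpecialLinearGroup.coe_one, ← Matrix.diagonal_one]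
      congr 1
      funext i
      fin_cases i
      · simp [← Units.val_pow_eq_pow_val, hlr]
      · simp [← Units.val_pow_eq_pow_val, hlr, inv_pow]
    · obtain ⟨c, -, hc⟩ := Linear.Classes.scalar_SL (Linear.Classes.proj_eq_one_iff.1 h)
      have h00 : (l : F) = c := by simpa [d] using congrFun (congrFun hc 0) 0
      have h11 : ((l⁻¹ : Fˣ) : F) = c := by simpa [d] using congrFun (congrFun hc 1) 1
      have : l * l = 1 := Units.ext (by
        rw [Units.val_mul, Units.val_one]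
        calc (l : F) * l = l * ((l⁻¹ : Fˣ) : F) := by rw [h11, h00]
          _ = 1 := by simp)
      have := hl ▸ orderOf_dvd_of_pow_eq_one (show l ^ 2 = 1 by rw [sq]; exact this)
      exact hr2 ((Nat.prime_dvd_prime_iff_eq hr Nat.prime_two).1 this)
  have hwd : w * d = d⁻¹ * w := by
    apply Subtype.ext
    rw [Matrix.SpecialLinearGroup.coe_mul, Matrix.SpecialLinearGroup.coe_mul,
      Matrix.SpecialLinearGroup.coe_inv]
    show !![(0 : F), 1; -1, 0] * !![(l : F), 0; 0, ((l⁻¹ : Fˣ) : F)] =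
      Matrix.adjugate !![(l : F), 0; 0, ((l⁻¹ : Fˣ) : F)] * !![(0 : F), 1; -1, 0]
    rw [Matrix.adjugate_fin_two_of]
    ext i j
    fin_cases i <;> fin_cases j <;> simp [Matrix.mul_apply, Fin.sum_univ_two]
  refine ⟨2, r, Linear.Classes.proj (z * d * z⁻¹), two_pos, by rw [hcard]; norm_num, hr, hr2, ?_,
    ⟨_, hbE, ?_⟩, fun k hk0 hk => ?_⟩
  · rw [map_mul, map_mul, map_inv, ← MulAut.conj_apply, MulEquiv.orderOf_eq, hdo]
  · rw [MulAut.conj_apply, ← map_inv, ← map_mul, ← map_mul, ← map_inv, ← hz]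
    congr 1
    calc z * w * z⁻¹ * (z * d * z⁻¹) * (z * w * z⁻¹)⁻¹ = z * (w * d * w⁻¹) * z⁻¹ := by group
      _ = (z * d * z⁻¹)⁻¹ := by rw [hwd]; group
  · have hq : r ∣ 3 ^ (2 * n + 1) - 1 := by
      rw [← hF, ht.1, Nat.add_sub_cancel]; exact Dvd.dvd.mul_left hrt 2
    have h3 : (3 : ZMod r) ^ (2 * n + 1) = 1 := by
      have := (ZMod.natCast_eq_natCast_iff' (3 ^ (2 * n + 1)) 1 r).2
        ((Nat.modEq_iff_dvd' (Nat.one_le_pow _ _ (by norm_num))).2 hq).symm
      simpa using this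
    have := no_small_order ⟨n, rfl⟩ hr h3 hr2 hk0 hk
    omega

end PSL

/-- The simple groups allowed as composition factors. -/
theorem autWit_of_isSuzukiOrPSL {X : Type u} [Group X] [Finite X] [IsSimpleGroup X]
    (hnc : ¬ IsMulCommutative X)
    (hX : Cfsg.IsSuzukiOrPSL2OddPowerThree X) (E : Subgroup (MulAut X))
    (hE : ∀ a ∈ E, a * a = 1) (h4 : 4 ≤ Nat.card E) : AutWit E := by
  rcases hX with ⟨F, _, _, m, hm, hF, ⟨f⟩⟩ | ⟨F, _, _, n, hF, ⟨f⟩⟩
  · haveI : Suzuki.SuzukiField F m := ⟨hm, hF⟩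
    let g : X ≃* Cfsg.Sz F m := f.trans (Suzuki.szEquivLie F m).symm
    haveI : Finite (Cfsg.Sz F m) := Finite.of_equiv X g.toEquiv
    haveI : Nontrivial (Cfsg.Sz F m) := g.symm.toEquiv.nontrivial
    haveI : IsSimpleGroup (Cfsg.Sz F m) :=
      IsSimpleGroup.isSimpleGroup_of_surjective g.toMonoidHom g.surjective
    refine autWit_of_equiv g (sz_autWit (fun h => hnc ⟨⟨fun x y => g.injective (by
      rw [map_mul, map_mul]; exact h.is_comm.comm _ _)⟩⟩) hm hF _ ?_ ?_)
    · rintro _ ⟨a, ha, rfl⟩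
      rw [← map_mul, hE a ha, map_one]
    · intro h
      rw [Subgroup.map_eq_bot_iff_of_injective _ (MulAut.congr g).injective] at h
      rw [h, Subgroup.card_bot] at h4
      omega
  · haveI : Nontrivial (ProjectiveSpecialLinearGroup (Fin 2) F) := f.symm.toEquiv.nontrivial
    haveI : IsSimpleGroup (ProjectiveSpecialLinearGroup (Fin 2) F) :=
      IsSimpleGroup.isSimpleGroup_of_surjective f.toMonoidHom f.surjective
    refine autWit_of_equiv f (psl_autWit hF (fun h => hnc ⟨⟨fun x y => f.injective (by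
      rw [map_mul, map_mul]; exact h.is_comm.comm _ _)⟩⟩) _ ?_ ?_)
    · rintro _ ⟨a, ha, rfl⟩
      rw [← map_mul, hE a ha, map_one]
    · rwa [card_map_of_injective (MulAut.congr f).injective]

end Cfsg.Agent.TwoF
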