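import Cfsg.Agent.TwoF.Inverted
import Cfsg.Agent.TwoF.Simple
import Cfsg.Agent.Components.FStar
import Cfsg.Agent.S0199
import Cfsg.Agent.S0206

/-!
Existence of witnesses for every nontrivial elementary abelian 2-subgroup of a group without section
`S₃`, with trivial 2-core, whose non-abelian composition factors are Suzuki groups or `PSL(2, 3^odd)`.
-/

set_option autoImplicit false
set_option linter.unusedSectionVars false
set_option linter.style.haveILetI false

namespace Cfsg.Agent.TwoF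

open Subgroup

universe u

variable {G : Type u} [Group G] [Finite G]

/-- The odd core contains the Fitting subgroup. -/
theorem fitting_le_oddCore (hO : Cfsg.pCore 2 G = ⊥) :
    Cfsg.fittingSubgroup G ≤ Cfsg.pPrimeCore 2 G := by
  haveI : Fact (Nat.Prime 2) := ⟨Nat.prime_two⟩
  refine sSup_le fun N hN => Cores.le_pPrimeCore hN.1 ?_
  haveI := hN.1
  haveI := hN.2
  rw [Nat.coprime_comm, Nat.prime_two.coprime_iff_not_dvd]
  intro h2
  obtain ⟨P⟩ : Nonempty (Sylow 2 N) := inferInstance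
  have hP : (P : Subgroup N).IsSubnormal := Normal.isSubnormal inferInstance
  have h1 : (P : Subgroup N).map N.subtype ≤ Cfsg.pCore 2 G :=
    Components.subnormal_le_pCore (hP.trans' hN.1.isSubnormal) (P.2.map _)
  rw [hO, le_bot_iff, map_eq_bot_iff_of_injective _ N.subtype_injective] at h1
  have h3 := P.dvd_card_of_dvd_card h2
  rw [h1, Subgroup.card_bot] at h3
  omega

theorem odd_oddCore : Odd (Nat.card (Cfsg.pPrimeCore 2 G)) :=
  Nat.coprime_two_right.1 (Cores.pPrimeCore_coprime (p := 2))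

theorem nilpotent_of_comm {X : Type*} [Group X] (h : ∀ a b : X, a * b = b * a) :
    Group.IsNilpotent X :=
  Components.nilpotent_of_commutator_le_center fun x _ => mem_center_iff.2 fun y => h y x

theorem component_center_le_oddCore (hO : Cfsg.pCore 2 G = ⊥) {K : Subgroup G}
    (hK : Cfsg.IsComponent K) : (center K).map K.subtype ≤ Cfsg.pPrimeCore 2 G := by
  refine (Components.subnormal_nilpotent_le_fitting
    ((Normal.isSubnormal inferInstance).trans' hK.1) (nilpotent_of_comm ?_)).trans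
    (fitting_le_oddCore hO)
  rintro ⟨_, a, ha, rfl⟩ ⟨_, b, hb, rfl⟩
  exact Subtype.ext (congrArg Subtype.val (mem_center_iff.1 hb a) :)

theorem component_quot_not_comm {K : Subgroup G} (hK : Cfsg.IsComponent K) :
    ¬ IsMulCommutative (↥K ⧸ center ↥K) := by
  intro hc
  have hs := hK.2.2
  haveI : Group.IsPerfect (↥K ⧸ center ↥K) :=
    haveI := hK.2.1
    Group.IsPerfect.ofSurjective (QuotientGroup.mk'_surjective _)
  haveI := hs
  have h1 : commutator (↥K ⧸ center ↥K) = ⊥ :=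
    (commutator_eq_bot_iff_center_eq_top (G := ↥K ⧸ center ↥K)).2 (eq_top_iff.2 fun x _ =>
      mem_center_iff.2 fun y => hc.is_comm.comm y x)
  rw [Group.IsPerfect.commutator_eq_top] at h1
  exact top_ne_bot h1

/-- A component has a non-central element of odd order. -/
theorem component_exists_odd {K : Subgroup G} (hK : Cfsg.IsComponent K) :
    ∃ x ∈ K, Odd (orderOf x) ∧ ∃ k ∈ K, x * k ≠ k * x := by
  haveI : Fact (Nat.Prime 2) := ⟨Nat.prime_two⟩
  haveI := hK.2.2
  have hnc := component_quot_not_comm hK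
  obtain ⟨y, hy⟩ : ∃ y : ↥K ⧸ center ↥K, ¬ ∃ i, orderOf y = 2 ^ i := by
    by_contra h
    push Not at h
    have hp : IsPGroup 2 (↥K ⧸ center ↥K) := IsPGroup.iff_orderOf.2 h
    haveI := hp.center_nontrivial
    rcases Subgroup.Normal.eq_bot_or_eq_top
      (inferInstance : (center (↥K ⧸ center ↥K)).Normal) with hb | ht
    · exact (Subgroup.nontrivial_iff_ne_bot _).1 inferInstance hb
    · exact hnc ⟨⟨fun a b => mem_center_iff.1 (ht.ge (mem_top b)) a⟩⟩
  obtain ⟨x, rfl⟩ := QuotientGroup.mk_surjective y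
  obtain ⟨i, m, hm, hxm⟩ := Nat.exists_eq_two_pow_mul_odd (orderOf_pos x).ne'
  have hx' : x ^ 2 ^ i ∉ center ↥K := by
    intro h
    refine hy ?_
    have : (QuotientGroup.mk x : ↥K ⧸ center ↥K) ^ 2 ^ i = 1 := by
      rw [← QuotientGroup.mk_pow, QuotientGroup.eq_one_iff]; exact h
    obtain ⟨j, -, hj⟩ := (Nat.dvd_prime_pow Nat.prime_two).1 (orderOf_dvd_of_pow_eq_one this)
    exact ⟨j, hj⟩
  rw [mem_center_iff] at hx'
  push Not at hx'
  obtain ⟨k, hk⟩ := hx'
  refine ⟨((x ^ 2 ^ i : ↥K) : G), (x ^ 2 ^ i).2, ?_, k, k.2, fun h => hk (Subtype.ext h).symm⟩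
  rw [Subgroup.orderOf_coe, orderOf_pow' x (by positivity), hxm,
    Nat.gcd_eq_right (dvd_mul_right _ m), Nat.mul_div_cancel_left _ (by positivity)]
  exact hm

variable {A : Subgroup G}

/-- An element inverted in a subgroup commuting with its conjugates. -/
theorem wit_of_normalized (hAc : ∀ a ∈ A, ∀ b ∈ A, a * b = b * a) (hA2 : ∀ a ∈ A, a * a = 1)
    {K A₀ C : Subgroup G} (hA₀ : A₀ ≤ A) (hCA₀ : C ≤ A₀)
    (hcomm : ∀ t ∈ A, t ∉ A₀ → ∀ x ∈ K, ∀ y ∈ K, Commute (t * x * t⁻¹) y)
    (hC : ∀ c ∈ C, ∀ x ∈ K, c * x = x * c)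
    {a x : G} (ha : a ∈ A₀) (hx : x ∈ K) (hnc : ∃ k ∈ K, x * k ≠ k * x)
    (hinv : a * x * a⁻¹ = x⁻¹) :
    ∃ (B : Subgroup G) (u : G), B ≤ A ∧ u ≠ 1 ∧ orderOf u ∣ orderOf x ∧
      (∀ b ∈ B, u * b = b * u) ∧ a * u * a⁻¹ = u⁻¹ ∧
      ∀ e, Nat.card A₀ ≤ 2 ^ e * Nat.card C → Nat.card A ≤ 2 ^ e * Nat.card B := by
  obtain ⟨T, hTA, hT, -, hcard⟩ := exists_complement hAc hA2 hA₀
  have hout : ∀ t ∈ T, t ≠ 1 → t ∉ A₀ := fun t ht ht1 h =>
    ht1 (Subgroup.mem_bot.1 (hT.le ⟨ht, h⟩))
  obtain ⟨P, -, hPT, hPfix, hPinv, hPpow, hPk⟩ := exists_conjProd (T := T) (x := x)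
    fun t ht ht1 => hcomm t (hTA ht) (hout t ht ht1) x hx x hx
  obtain ⟨k, hk, hne⟩ := hnc
  refine ⟨T ⊔ C, P, sup_le hTA (hCA₀.trans hA₀), ?_, orderOf_dvd_of_pow_eq_one
    (hPpow _ (pow_orderOf_eq_one x)), fun b hb => ?_,
    hPinv a (fun t ht => hAc a (hA₀ ha) t (hTA ht)) hinv, fun e he => ?_⟩
  · intro hP1
    apply hne
    have h := hPk k fun t ht ht1 => hcomm t (hTA ht) (hout t ht ht1) x hx k hk
    rw [hP1, one_mul, inv_one, mul_one] at h
    conv_rhs => rw [h]
    rw [inv_mul_cancel_right]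
  · have hle : T ⊔ C ≤ centralizer ({P} : Set G) := by
      refine sup_le (fun t ht => ?_) fun c hc => ?_ <;> rw [mem_centralizer_singleton_iff]
      · exact mul_inv_eq_iff_eq_mul.1 (hPT t ht)
      · exact mul_inv_eq_iff_eq_mul.1 (hPfix c (fun t ht => hAc c (hA₀ (hCA₀ hc)) t (hTA ht))
          (mul_inv_eq_iff_eq_mul.2 (hC c hc x hx)))
    exact (mem_centralizer_singleton_iff.1 (hle hb)).symm
  · rw [TTLink.card_sup_commute (fun t ht c hc => hAc t (hTA ht) c (hA₀ (hCA₀ hc)))
      (le_bot_iff.1 (le_trans (inf_le_inf_left T hCA₀) hT.le))]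
    calc Nat.card A ≤ Nat.card T * Nat.card A₀ := hcard
      _ ≤ Nat.card T * (2 ^ e * Nat.card C) := Nat.mul_le_mul_left _ he
      _ = 2 ^ e * (Nat.card T * Nat.card C) := by ring

/-- The case that no element normalising the component moves it. -/
theorem wit_of_swapped (hAc : ∀ a ∈ A, ∀ b ∈ A, a * b = b * a) (hA2 : ∀ a ∈ A, a * a = 1)
    {K C : Subgroup G} (hCA : C ≤ A) (hne : C ≠ A)
    (hcomm : ∀ t ∈ A, t ∉ C → ∀ x ∈ K, ∀ y ∈ K, Commute (t * x * t⁻¹) y)
    (hC : ∀ c ∈ C, ∀ x ∈ K, c * x = x * c)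
    {x : G} (hx : x ∈ K) (hodd : Odd (orderOf x)) (hnc : ∃ k ∈ K, x * k ≠ k * x) : Wit A := by
  haveI : Fact (Nat.Prime 2) := ⟨Nat.prime_two⟩
  obtain ⟨a, ha, haC⟩ : ∃ a ∈ A, a ∉ C := by
    by_contra h
    push Not at h
    exact hne (le_antisymm hCA h)
  have ha1 : a ≠ 1 := fun h => haC (h ▸ C.one_mem)
  obtain ⟨B, hBA, hBa, hCB⟩ : ∃ B : Subgroup G, B ≤ A ∧ a ∉ B ∧ C ≤ B ∧
      Nat.card A ≤ 2 * Nat.card B := by
    obtain ⟨B, ⟨⟨hBA, hBa⟩, hCB⟩, hmax⟩ := Set.Finite.exists_maximal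
      (s := {B : Subgroup G | (B ≤ A ∧ a ∉ B) ∧ C ≤ B}) (Set.toFinite _) ⟨C, ⟨hCA, haC⟩, le_rfl⟩
    obtain ⟨T, hTA, hT, -, hcard⟩ := exists_complement hAc hA2 hBA
    refine ⟨B, hBA, hBa, hCB, le_trans hcard (Nat.mul_le_mul_right _ ?_)⟩
    by_contra h3
    obtain ⟨s, hs, hs1, hs2⟩ : ∃ s ∈ T, s ≠ 1 ∧ a ∉ B ⊔ zpowers s := by
      by_contra h
      push Not at h
      refine h3 ?_
      have key : ∀ s ∈ T, s ≠ 1 → ∃ b ∈ B, a = s * b := by
        intro s hs hs1
        have hn : zpowers s ≤ normalizer (B : Set G) := le_normalizer_iff.2 fun z hz y hy => by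
          rw [hAc z (zpowers_le.2 (hTA hs) hz) y (hBA hy), mul_inv_cancel_right]; exact hy
        have h1 := h s hs hs1
        rw [← SetLike.mem_coe, sup_comm, coe_mul_of_left_le_normalizer_right (zpowers s) B hn]
          at h1
        obtain ⟨y, hy, b, hb, hyb⟩ := h1
        have hy2 : y = 1 ∨ y = s := by
          obtain ⟨i, rfl⟩ := (mem_powers_iff_mem_zpowers).2 hy
          rcases Nat.even_or_odd i with ⟨j, rfl⟩ | ⟨j, rfl⟩
          · left; show s ^ (j + j) = 1; rw [← two_mul, pow_mul, sq, hA2 s (hTA hs), one_pow]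
          · right; show s ^ (2 * j + 1) = s
            rw [pow_succ, pow_mul, sq, hA2 s (hTA hs), one_pow, one_mul]
        rcases hy2 with rfl | rfl
        · exact absurd (by rw [← hyb]; simpa using hb) hBa
        · exact ⟨b, hb, hyb.symm⟩
      rcases eq_or_ne T ⊥ with hT0 | hT0
      · rw [hT0, Subgroup.card_bot]; norm_num
      obtain ⟨⟨s, hs⟩, hs1⟩ := Subgroup.ne_bot_iff_exists_ne_one.1 hT0
      have hle : T ≤ zpowers s := by
        intro s' hs'
        rcases eq_or_ne s' 1 with rfl | hs'1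
        · exact one_mem _
        obtain ⟨b, hb, e1⟩ := key s hs fun h => hs1 (Subtype.ext h)
        obtain ⟨b', hb', e2⟩ := key s' hs' hs'1
        have h1 : s⁻¹ * s' = 1 := Subgroup.mem_bot.1 (hT.le ⟨T.mul_mem (T.inv_mem hs) hs', by
          rw [show s⁻¹ * s' = b * b'⁻¹ by
            calc s⁻¹ * s' = s⁻¹ * (s' * b') * b'⁻¹ := by group
              _ = b * b'⁻¹ := by rw [← e2, e1]; group]
          exact B.mul_mem hb (B.inv_mem hb')⟩)
        rw [← inv_mul_eq_one.1 h1]
        exact mem_zpowers s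
      calc Nat.card T ≤ Nat.card (zpowers s) := card_le_of_le hle
        _ ≤ 2 := by
          rw [Nat.card_zpowers]
          exact orderOf_le_of_pow_eq_one two_pos (by rw [sq]; exact hA2 s (hTA hs))
    have hsB : B ⊔ zpowers s ≤ B :=
      hmax ⟨⟨sup_le hBA (zpowers_le.2 (hTA hs)), hs2⟩, hCB.trans le_sup_left⟩ le_sup_left
    exact hs1 (Subgroup.mem_bot.1 (hT.le ⟨hs, hsB (mem_sup_right (mem_zpowers s))⟩))
  obtain ⟨hCB, hcard⟩ := hCB
  obtain ⟨T, hTB, hT, hsup, -⟩ := exists_complement (fun y hy z hz => hAc y (hBA hy) z (hBA hz))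
    (fun y hy => hA2 y (hBA hy)) hCB
  have hout : ∀ t ∈ T, t ≠ 1 → t ∉ C := fun t ht ht1 h =>
    ht1 (Subgroup.mem_bot.1 (hT.le ⟨ht, h⟩))
  have hTc : ∀ t ∈ T, t ∈ A := fun t ht => hBA (hTB ht)
  have hta : ∀ t ∈ T, t * a ∉ C := fun t ht h => hBa (by
    rw [show a = t⁻¹ * (t * a) by group]
    exact B.mul_mem (B.inv_mem (hTB ht)) (hCB h))
  -- the two products
  obtain ⟨P, hP, hPT, hPfix, -, hPpow, hPk⟩ := exists_conjProd (T := T) (x := x)
    fun t ht ht1 => hcomm t (hTc t ht) (hout t ht ht1) x hx x hx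
  set Q := a * P * a⁻¹ with hQ
  have hQmem : Q ∈ (conjClosure T x).map (MulAut.conj a).toMonoidHom := ⟨P, hP, rfl⟩
  have hQcent : ∀ y : G, (∀ t ∈ T, Commute (t * a * x * (t * a)⁻¹) y) → Commute Q y := by
    intro y hy
    have hle : (conjClosure T x).map (MulAut.conj a).toMonoidHom ≤ centralizer ({y} : Set G) := by
      rw [map_le_iff_le_comap, conjClosure, closure_le]
      rintro _ ⟨t, rfl⟩
      show a * ((t : G) * x * (t : G)⁻¹) * a⁻¹ ∈ centralizer ({y} : Set G)
      rw [mem_centralizer_singleton_iff, show a * ((t : G) * x * (t : G)⁻¹) * a⁻¹ =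
        (a * t) * x * (a * t)⁻¹ by group, hAc a ha t (hTc t t.2)]
      exact (hy t t.2).eq
    exact mem_centralizer_singleton_iff.1 (hle hQmem)
  have hPQ : Commute P Q := by
    have hle : conjClosure T x ≤ centralizer ({Q} : Set G) := by
      rw [conjClosure, closure_le]
      rintro _ ⟨t, rfl⟩
      refine mem_centralizer_singleton_iff.2 (hQcent _ fun s hs => ?_).symm.eq
      have h1 := (hcomm ((t : G)⁻¹ * (s * a)) (A.mul_mem (A.inv_mem (hTc t t.2))
        (A.mul_mem (hTc s hs) ha)) (fun h => hta _ (T.mul_mem (T.inv_mem t.2) hs) (by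
          rwa [mul_assoc])) x hx x hx).map (MulAut.conj (t : G))
      simp only [MulAut.conj_apply] at h1
      rwa [show (t : G) * ((t : G)⁻¹ * (s * a) * x * ((t : G)⁻¹ * (s * a))⁻¹) * (t : G)⁻¹ =
        s * a * x * (s * a)⁻¹ by group] at h1
    exact mem_centralizer_singleton_iff.1 (hle hP)
  obtain ⟨k, hk, hne'⟩ := hnc
  refine wit_of_inverted (v := P⁻¹ * Q) hBA ha hcard ?_ ?_ ?_ ?_
  · intro h
    apply hne'
    have h1 := hPk k fun t ht ht1 => hcomm t (hTc t ht) (hout t ht ht1) x hx k hk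
    have h2 : Commute Q k := hQcent k fun t ht => hcomm _ (A.mul_mem (hTc t ht) ha) (hta t ht)
      x hx k hk
    rw [inv_mul_eq_one.1 h, h2.eq, mul_inv_cancel_right] at h1
    conv_rhs => rw [h1]
    rw [inv_mul_cancel_right]
  · refine hodd.of_dvd_nat (orderOf_dvd_of_pow_eq_one ?_)
    rw [hPQ.inv_left.mul_pow, inv_pow, hQ, conj_pow, hPpow _ (pow_orderOf_eq_one x)]
    simp
  · intro b hb
    have h1 : Commute b P := by
      have hle : B ≤ centralizer ({P} : Set G) := hsup.trans (sup_le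
        (fun t ht => mem_centralizer_singleton_iff.2 (mul_inv_eq_iff_eq_mul.1 (hPT t ht)))
        fun c hc => mem_centralizer_singleton_iff.2 (mul_inv_eq_iff_eq_mul.1
          (hPfix c (fun t ht => hAc c (hCA hc) t (hTc t ht))
            (mul_inv_eq_iff_eq_mul.2 (hC c hc x hx)))))
      exact mem_centralizer_singleton_iff.1 (hle hb)
    have h2 : Commute b a := hAc b (hBA hb) a ha
    exact (h1.inv_right.mul_right ((h2.mul_right h1).mul_right h2.inv_right)).symm.eq
  · rw [hQ, inv_eq_self hA2 ha]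
    calc a * (P⁻¹ * (a * P * a)) * a = a * P⁻¹ * a * P * (a * a) := by group
      _ = a * P⁻¹ * a * P := by rw [hA2 a ha, mul_one]
      _ = (P⁻¹ * (a⁻¹ * P * a⁻¹))⁻¹ := by group
      _ = _ := by rw [inv_eq_self hA2 ha]

/-- An element of order two moving a component inverts a non-central element of odd order in it. -/
theorem exists_inverted_in_component {K : Subgroup G} (hK : Cfsg.IsComponent K) {a : G}
    (ha : a * a = 1) (hn : a ∈ normalizer (K : Set G)) (hna : ∃ y ∈ K, a * y ≠ y * a) :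
    ∃ x ∈ K, x ≠ 1 ∧ Odd (orderOf x) ∧ a * x * a⁻¹ = x⁻¹ := by
  haveI : Fact (Nat.Prime 2) := ⟨Nat.prime_two⟩
  set H := K ⊔ zpowers a with hH
  have hKH : K ≤ H := le_sup_left
  have haH : a ∈ H := mem_sup_right (mem_zpowers a)
  let a' : H := ⟨a, haH⟩
  have ha2 : a' * a' = 1 := Subtype.ext ha
  have hX : IsPGroup 2 (zpowers a') := by
    obtain ⟨j, -, hj⟩ := (Nat.dvd_prime_pow Nat.prime_two).1
      (show orderOf a' ∣ 2 ^ 1 by rw [pow_one]; exact orderOf_dvd_of_pow_eq_one (by rw [sq, ha2]))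
    exact IsPGroup.of_card (n := j) (by rw [Nat.card_zpowers, hj])
  by_contra hcon
  push Not at hcon
  obtain ⟨N, hN, hNp, haN⟩ := S0199.result (zpowers a') hX (by
    intro g
    have hg : (g : G) ∈ K ⊔ zpowers a := g.2
    have hnz : zpowers a ≤ normalizer (K : Set G) := zpowers_le.2 hn
    rw [← SetLike.mem_coe, coe_mul_of_right_le_normalizer_left K (zpowers a) hnz] at hg
    obtain ⟨k, hk, z, hz, hkz⟩ := hg
    obtain ⟨i, rfl⟩ := mem_zpowers_iff.1 hz
    set b : H := g * a' * g⁻¹ with hb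
    have hbv : (b : G) = k * a * k⁻¹ := by
      show (g : G) * a * (g : G)⁻¹ = _
      rw [← hkz]
      group
    have hb2 : b * b = 1 := by
      calc b * b = g * (a' * a') * g⁻¹ := by rw [hb]; group
        _ = 1 := by rw [ha2, mul_one, mul_inv_cancel]
    have hle : zpowers a' ⊔ (zpowers a').map (MulAut.conj g).toMonoidHom ≤ closure {a', b} := by
      rw [MonoidHom.map_zpowers]
      exact sup_le (zpowers_le.2 (subset_closure (Or.inl rfl)))
        (zpowers_le.2 (subset_closure (Or.inr (by simp [hb]))))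
    refine IsPGroup.to_le ?_ hle
    rcases eq_or_ne a' b with hab | hab
    · rw [← hab, Set.pair_eq_singleton, ← zpowers_eq_closure]; exact hX
    have ha'1 : orderOf a' = 2 := orderOf_eq_prime (by rw [sq, ha2]) fun h => by
      apply hab
      rw [hb, h, mul_one, mul_inv_cancel]
    have hb1 : orderOf b = 2 := by
      rw [hb, ← MulAut.conj_apply, MulEquiv.orderOf_eq, ha'1]
    obtain ⟨f⟩ := S0206.result a' b ha'1 hb1 hab
    obtain ⟨j, m, hm, hjm⟩ := Nat.exists_eq_two_pow_mul_odd (orderOf_pos (a' * b)).ne'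
    have hm1 : m = 1 := by
      by_contra hm1
      have hwK : ((a' * b : H) : G) ∈ K := by
        rw [Subgroup.coe_mul, hbv, show ((a' : H) : G) = a from rfl,
          show a * (k * a * k⁻¹) = (a * k * a) * k⁻¹ by group]
        have := (mem_normalizer_iff.1 hn k).1 hk
        rw [inv_eq_of_mul_eq_one_right ha] at this
        exact K.mul_mem this (K.inv_mem hk)
      have hinv : a' * (a' * b) * a'⁻¹ = (a' * b)⁻¹ := by
        rw [inv_eq_of_mul_eq_one_right ha2, mul_inv_rev, inv_eq_of_mul_eq_one_right hb2,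
          inv_eq_of_mul_eq_one_right ha2, ← mul_assoc, ha2, one_mul]
      have ho : orderOf ((a' * b) ^ 2 ^ j) = m := by
        rw [orderOf_pow' _ (by positivity), hjm, Nat.gcd_eq_right (dvd_mul_right _ m),
          Nat.mul_div_cancel_left _ (by positivity)]
      refine hcon _ (K.pow_mem hwK (2 ^ j)) ?_ ?_ ?_
      · rw [← Subgroup.coe_pow, Ne, OneMemClass.coe_eq_one]
        intro h
        rw [h, orderOf_one] at ho
        exact hm1 ho.symm
      · rw [← Subgroup.coe_pow, Subgroup.orderOf_coe, ho]; exact hm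
      · have := congrArg (fun z : H => (z : G)) (show a' * (a' * b) ^ 2 ^ j * a'⁻¹ =
          ((a' * b) ^ 2 ^ j)⁻¹ by rw [← conj_pow, hinv, inv_pow])
        simpa using this
    refine IsPGroup.of_equiv ?_ f.symm
    refine IsPGroup.of_card (n := j + 1) ?_
    rw [DihedralGroup.nat_card, hjm, hm1, mul_one, pow_succ, mul_comm])
  obtain ⟨y, hy, hay⟩ := hna
  apply hay
  have hn' : K ≤ normalizer ((N.map H.subtype : Subgroup G) : Set G) := by
    refine le_normalizer_iff.2 ?_
    rintro k hk _ ⟨z, hz, rfl⟩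
    exact ⟨⟨k, hKH hk⟩ * z * ⟨k, hKH hk⟩⁻¹, hN.conj_mem z hz _, rfl⟩
  have hsol : Group.IsSolvable ↥(N.map H.subtype) := by
    haveI := (hNp.map H.subtype).isNilpotent
    infer_instance
  have h := Components.component_centralizes_solvable hK hsol hn'
  rw [commutator_eq_bot_iff_le_centralizer] at h
  exact mem_centralizer_iff.1 (h hy) a ⟨a', haN (mem_zpowers a'), rfl⟩

/-- Every nontrivial elementary abelian 2-subgroup has a witness. -/
theorem wit_exists (hO : Cfsg.pCore 2 G = ⊥)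
    (hc : Cfsg.IsCompositionKGroupWith Cfsg.IsSuzukiOrPSL2OddPowerThree G) (A : Subgroup G)
    (hA : A ≠ ⊥) (hAc : ∀ a ∈ A, ∀ b ∈ A, a * b = b * a) (hA2 : ∀ a ∈ A, a * a = 1) : Wit A := by
  classical
  haveI : Fact (Nat.Prime 2) := ⟨Nat.prime_two⟩
  haveI : (Cfsg.pPrimeCore 2 G).Normal := sSup_normal _ fun _ h => h.1
  set O := Cfsg.pPrimeCore 2 G with hOdef
  by_cases hAO : A ≤ centralizer (O : Set G)
  swap
  · exact wit_of_odd_subgroup hAc hA2 (fun a _ => by
      rw [Subgroup.normalizer_eq_top_iff.2 inferInstance]; exact mem_top a) odd_oddCore hAO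
  obtain ⟨K, hK, hAK⟩ : ∃ K : Subgroup G, Cfsg.IsComponent K ∧ ¬ A ≤ centralizer (K : Set G) := by
    by_contra h0
    have h : ∀ K : Subgroup G, Cfsg.IsComponent K → A ≤ centralizer (K : Set G) :=
      fun K hK => not_not.1 fun h1 => h0 ⟨K, hK, h1⟩
    apply hA
    have h1 : A ≤ centralizer (Cfsg.generalizedFittingSubgroup G : Set G) := by
      rw [le_centralizer_iff]
      exact sup_le (Components.layer_le_iff.2 fun K hK => le_centralizer_iff.1 (h K hK))
        ((fitting_le_oddCore hO).trans (le_centralizer_iff.1 hAO))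
    have hFn := Components.genFitting_normal (G := G)
    set Z := Cfsg.generalizedFittingSubgroup G ⊓
      centralizer (Cfsg.generalizedFittingSubgroup G : Set G)
    have hCn : (centralizer (Cfsg.generalizedFittingSubgroup G : Set G)).Normal :=
      normal_centralizer
    have hZ : Z ≤ O := by
      refine (Components.subnormal_nilpotent_le_fitting
        (Normal.isSubnormal (inferInstance : Z.Normal)) (nilpotent_of_comm ?_)).trans
        (fitting_le_oddCore hO)
      exact fun a b => Subtype.ext (mem_centralizer_iff.1 b.2.2 a a.2.1)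
    have h2 : A ≤ O := (le_inf (h1.trans Components.centralizer_genFitting_le) h1).trans hZ
    refine A.eq_bot_iff_forall.2 fun a ha => ?_
    have h3 : orderOf a ∣ 2 := orderOf_dvd_of_pow_eq_one (by rw [sq]; exact hA2 a ha)
    have h4 : orderOf a ∣ Nat.card O := Subgroup.orderOf_dvd_natCard O (h2 ha)
    rcases (Nat.dvd_prime Nat.prime_two).1 h3 with h | h
    · exact orderOf_eq_one_iff.1 h
    · rw [h] at h4
      exact absurd (even_iff_two_dvd.2 h4) (Nat.not_even_iff_odd.2 odd_oddCore)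
  set A₀ := A ⊓ normalizer (K : Set G) with hA₀
  set C := A ⊓ centralizer (K : Set G) with hCdef
  have hC : ∀ c ∈ C, ∀ x ∈ K, c * x = x * c := fun c hc' x hx =>
    (mem_centralizer_iff.1 hc'.2 x hx).symm
  have hCA₀ : C ≤ A₀ := inf_le_inf_left A fun c hcc => by
    rw [mem_normalizer_iff]
    intro y
    refine ⟨fun hy => ?_, fun hy => ?_⟩
    · rwa [← mem_centralizer_iff.1 hcc y hy, mul_inv_cancel_right]
    · have h := mem_centralizer_iff.1 hcc _ hy
      rw [inv_mul_cancel_right] at h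
      rwa [← mul_left_cancel h.symm]
  have hcomm : ∀ t ∈ A, t ∉ A₀ → ∀ x ∈ K, ∀ y ∈ K, Commute (t * x * t⁻¹) y := by
    intro t ht htn x hx y hy
    have hne : K.map (MulAut.conj t).toMonoidHom ≠ K := fun h =>
      htn ⟨ht, Fusion.cj_eq_iff_mem_normalizer.1 h⟩
    have h := Components.component_commute (Components.component_conj t hK) hK hne
    rw [commutator_eq_bot_iff_le_centralizer] at h
    exact (mem_centralizer_iff.1 (h ⟨x, hx, rfl⟩) y hy).symm
  by_cases hA₀C : A₀ = C
  · obtain ⟨x, hx, hodd, hnc⟩ := component_exists_odd hK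
    exact wit_of_swapped hAc hA2 (C := C) inf_le_left
      (fun h => hAK (h.ge.trans inf_le_right)) (fun t ht htC => hcomm t ht (hA₀C ▸ htC)) hC
      hx hodd hnc
  -- the action on the simple group
  have hnorm : ∀ a : A₀, ∀ y ∈ K, (a : G) * y * (a : G)⁻¹ ∈ K := fun a y hy =>
    (mem_normalizer_iff.1 a.2.2 y).1 hy
  have hZfix : ∀ a ∈ A, ∀ z : K, z ∈ center ↥K → a * (z : G) = z * a := fun a ha z hz =>
    (mem_centralizer_iff.1 (hAO ha) z (component_center_le_oddCore hO hK ⟨z, hz, rfl⟩)).symm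
  let conjK : A₀ →* MulAut K :=
    { toFun := fun a =>
        { toFun := fun y => ⟨(a : G) * y * (a : G)⁻¹, hnorm a y y.2⟩
          invFun := fun y => ⟨((a⁻¹ : A₀) : G) * y * ((a⁻¹ : A₀) : G)⁻¹, hnorm a⁻¹ y y.2⟩
          left_inv := fun y => Subtype.ext (by simp [mul_assoc])
          right_inv := fun y => Subtype.ext (by simp [mul_assoc])
          map_mul' := fun y z => Subtype.ext (by simp [mul_assoc]) }
      map_one' := MulEquiv.ext fun y => Subtype.ext (by simp)
      map_mul' := fun a b => MulEquiv.ext fun y => Subtype.ext (by simp [mul_assoc]) }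
  have hcmap : ∀ a : A₀, (center ↥K).map (conjK a).toMonoidHom = center ↥K := fun a => by
    haveI : (center ↥K).Characteristic := inferInstance
    exact characteristic_iff_map_eq.1 inferInstance (conjK a)
  let θ : A₀ →* MulAut (↥K ⧸ center ↥K) :=
    { toFun := fun a => QuotientGroup.congr (center ↥K) (center ↥K) (conjK a) (hcmap a)
      map_one' := MulEquiv.ext fun q => QuotientGroup.induction_on q fun y => by
        show ((conjK 1 y : K) : ↥K ⧸ center ↥K) = _
        rw [map_one]; rfl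
      map_mul' := fun a b => MulEquiv.ext fun q => QuotientGroup.induction_on q fun y => by
        show ((conjK (a * b) y : K) : ↥K ⧸ center ↥K) =
          ((conjK a (conjK b y) : K) : ↥K ⧸ center ↥K)
        rw [map_mul]; rfl }
  have hker : θ.ker.map A₀.subtype = C := by
    refine le_antisymm ?_ fun c hc' => ⟨⟨c, hCA₀ hc'⟩, MonoidHom.mem_ker.2 (MulEquiv.ext fun q =>
      QuotientGroup.induction_on q fun y => ?_), rfl⟩
    · rintro _ ⟨a, ha, rfl⟩
      refine ⟨a.2.1, mem_centralizer_iff.2 fun y hy => ?_⟩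
      have h1 : ((conjK a ⟨y, hy⟩ : K) : ↥K ⧸ center ↥K) = ((⟨y, hy⟩ : K) : ↥K ⧸ center ↥K) :=
        DFunLike.congr_fun (MonoidHom.mem_ker.1 ha) ((⟨y, hy⟩ : K) : ↥K ⧸ center ↥K)
      obtain ⟨z, hz, hz'⟩ : ∃ z : K, z ∈ center ↥K ∧ (a : G) * y * (a : G)⁻¹ = y * z := by
        refine ⟨_, QuotientGroup.eq.1 h1.symm, ?_⟩
        show (a : G) * y * (a : G)⁻¹ = y * (y⁻¹ * ((a : G) * y * (a : G)⁻¹))
        rw [mul_inv_cancel_left]
      have haz := hZfix _ a.2.1 z hz
      have haa : (a : G) * a = 1 := hA2 _ a.2.1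
      have hainv : (a : G)⁻¹ = a := inv_eq_of_mul_eq_one_right haa
      have h2 : y * ((z : G) * z) = y := by
        calc y * ((z : G) * z) = (y * z) * z * ((a : G) * a) := by rw [haa]; group
          _ = ((a : G) * y * a) * z * ((a : G) * a) := by rw [← hz', hainv]
          _ = (a : G) * y * ((a : G) * z) * ((a : G) * a) := by group
          _ = (a : G) * y * (z * a) * ((a : G) * a) := by rw [haz]
          _ = (a : G) * (y * z) * a := by rw [haa]; group
          _ = (a : G) * ((a : G) * y * a) * a := by rw [← hz', hainv]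
          _ = ((a : G) * a) * y * ((a : G) * a) := by group
          _ = y := by rw [haa]; group
      have hzodd : orderOf (z : G) ∣ Nat.card O :=
        Subgroup.orderOf_dvd_natCard O (component_center_le_oddCore hO hK ⟨z, hz, rfl⟩)
      have hz1 : (z : G) = 1 := by
        have h3 : orderOf (z : G) ∣ 2 := orderOf_dvd_of_pow_eq_one (by
          rw [sq]; exact mul_eq_left.1 h2)
        rcases (Nat.dvd_prime Nat.prime_two).1 h3 with h | h
        · exact orderOf_eq_one_iff.1 h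
        · rw [h] at hzodd
          exact absurd (even_iff_two_dvd.2 hzodd) (Nat.not_even_iff_odd.2 odd_oddCore)
      rw [hz1, mul_one, mul_inv_eq_iff_eq_mul] at hz'
      exact hz'.symm
    · show ((conjK ⟨c, hCA₀ hc'⟩ y : K) : ↥K ⧸ center ↥K) = (y : ↥K ⧸ center ↥K)
      congr 1
      exact Subtype.ext (mul_inv_eq_iff_eq_mul.2 (hC c hc' y y.2))
  set E := θ.range
  have hE2 : ∀ f ∈ E, f * f = 1 := by
    rintro _ ⟨a, rfl⟩
    rw [← map_mul, show a * a = 1 from Subtype.ext (hA2 _ a.2.1), map_one]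
  have hcardA₀ : Nat.card A₀ = Nat.card E * Nat.card C := by
    rw [← hker, card_map_of_injective A₀.subtype_injective,
      Subgroup.card_eq_card_quotient_mul_card_subgroup θ.ker,
      Nat.card_congr (QuotientGroup.quotientKerEquivRange θ).toEquiv]
  obtain ⟨j, hj⟩ := IsPGroup.iff_card.1 (show IsPGroup 2 E from fun f => ⟨1, Subtype.ext (by
    show (f : MulAut (↥K ⧸ center ↥K)) ^ 2 ^ 1 = 1
    rw [pow_one, sq]; exact hE2 f f.2)⟩)
  have hj0 : j ≠ 0 := by
    rintro rfl
    refine hA₀C (le_antisymm ?_ hCA₀)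
    exact (Subgroup.eq_of_le_of_card_ge hCA₀ (by rw [hcardA₀, hj]; simp)).ge
  by_cases hj1 : j = 1
  · subst hj1
    obtain ⟨a, ha, haC⟩ : ∃ a ∈ A₀, a ∉ C := by
      by_contra h
      push Not at h
      exact hA₀C (le_antisymm h hCA₀)
    obtain ⟨x, hx, hx1, hodd, hinv⟩ := exists_inverted_in_component hK (hA2 a ha.1) ha.2 (by
      by_contra h
      push Not at h
      exact haC ⟨ha.1, mem_centralizer_iff.2 fun y hy => (h y hy).symm⟩)
    have hnc : ∃ k ∈ K, x * k ≠ k * x := by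
      by_contra h
      push Not at h
      have h1 : (⟨x, hx⟩ : K) ∈ center ↥K :=
        mem_center_iff.2 fun k => Subtype.ext (h k k.2).symm
      have h2 := hZfix a ha.1 _ h1
      change a * x = x * a at h2
      rw [h2, mul_inv_cancel_right] at hinv
      have h3 : orderOf x ∣ 2 := orderOf_dvd_of_pow_eq_one (by
        rw [sq]; exact eq_inv_iff_mul_eq_one.1 hinv)
      rcases (Nat.dvd_prime Nat.prime_two).1 h3 with h4 | h4
      · exact hx1 (orderOf_eq_one_iff.1 h4)
      · rw [h4] at hodd; exact absurd hodd (by decide)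
    obtain ⟨B, w, hB, hw, hwo, hwc, hwi, hcard⟩ :=
      wit_of_normalized hAc hA2 inf_le_left hCA₀ hcomm hC ha hx hnc hinv
    exact wit_of_inverted hB ha.1 (by simpa using hcard 1 (le_of_eq (by rw [hcardA₀, hj]))) hw
      (hodd.of_dvd_nat hwo) hwc hwi
  · haveI := hK.2.2
    have hfac : Cfsg.IsSuzukiOrPSL2OddPowerThree (↥K ⧸ center ↥K) :=
      hc K hK.1 (center ↥K) hK.2.2 (component_quot_not_comm hK)
    obtain ⟨e, r, q, he0, hEe, hr, hr2, hq, ⟨_, ⟨a, rfl⟩, hqa⟩, hk⟩ :=
      autWit_of_isSuzukiOrPSL (component_quot_not_comm hK) hfac E hE2 (by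
        rw [hj]
        calc 4 = 2 ^ 2 := rfl
          _ ≤ 2 ^ j := Nat.pow_le_pow_right two_pos (by omega))
    obtain ⟨y, rfl⟩ := QuotientGroup.mk_surjective q
    haveI : Fact r.Prime := ⟨hr⟩
    -- the inverted lift
    have haa : (a : G) * a = 1 := hA2 _ a.2.1
    set w : K := y⁻¹ * conjK a y with hw
    have hwv : (w : G) = (y : G)⁻¹ * ((a : G) * y * (a : G)⁻¹) := rfl
    have hwinv : (a : G) * w * (a : G)⁻¹ = (w : G)⁻¹ := by
      have hainv : (a : G)⁻¹ = a := inv_eq_of_mul_eq_one_right haa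
      simp only [hwv, hainv]
      calc (a : G) * ((y : G)⁻¹ * ((a : G) * y * a)) * a
          = (a : G) * (y : G)⁻¹ * a * y * ((a : G) * a) := by group
        _ = (a : G) * (y : G)⁻¹ * a * y := by rw [haa, mul_one]
        _ = ((y : G)⁻¹ * ((a : G)⁻¹ * y * (a : G)⁻¹))⁻¹ := by group
        _ = _ := by rw [hainv]
    have hwq : (w : ↥K ⧸ center ↥K) = ((y : ↥K ⧸ center ↥K) ^ 2)⁻¹ := by
      rw [hw, QuotientGroup.mk_mul, QuotientGroup.mk_inv]
      change (y : ↥K ⧸ center ↥K)⁻¹ * θ a (y : ↥K ⧸ center ↥K) = _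
      rw [hqa, sq, mul_inv_rev]
    have hrw : r ∣ orderOf w := by
      have h1 : orderOf (w : ↥K ⧸ center ↥K) = r := by
        rw [hwq, orderOf_inv, orderOf_pow' _ (by norm_num), hq,
          (Nat.coprime_primes hr Nat.prime_two).2 hr2, Nat.div_one]
      rw [← h1]
      exact orderOf_map_dvd (QuotientGroup.mk' (center ↥K)) w
    set x : K := w ^ (orderOf w / r) with hxdef
    have hxo : orderOf (x : G) = r := by
      rw [Subgroup.orderOf_coe, hxdef]
      exact orderOf_pow_orderOf_div (orderOf_pos w).ne' hrw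
    have hxinv : (a : G) * x * (a : G)⁻¹ = (x : G)⁻¹ := by
      rw [hxdef, Subgroup.coe_pow, ← conj_pow, hwinv, inv_pow]
    have hnc : ∃ k ∈ K, (x : G) * k ≠ k * x := by
      by_contra h
      push Not at h
      have h1 : x ∈ center ↥K := mem_center_iff.2 fun k => Subtype.ext (h k k.2).symm
      rw [hZfix a a.2.1 x h1, mul_inv_cancel_right] at hxinv
      have h3 : orderOf (x : G) ∣ 2 := orderOf_dvd_of_pow_eq_one (by
        rw [sq]; exact eq_inv_iff_mul_eq_one.1 hxinv)
      rw [hxo] at h3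
      exact hr2 ((Nat.prime_dvd_prime_iff_eq hr Nat.prime_two).1 h3)
    obtain ⟨B, u', hB, hu, huo, huc, hui, hcard⟩ :=
      wit_of_normalized hAc hA2 inf_le_left hCA₀ hcomm hC a.2 x.2 hnc hxinv
    refine ⟨e, r, B, a, u', he0, hB, a.2.1, hcard e (le_of_eq (by rw [hcardA₀, hEe])), hr, hr2,
      ?_, huc, hui, Or.inr hk⟩
    rcases (Nat.dvd_prime hr).1 (hxo ▸ huo) with h | h
    · exact absurd (orderOf_eq_one_iff.1 h) hu
    · exact h

end Cfsg.Agent.TwoF
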