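import Cfsg.Agent.TwoF.Dual
import Cfsg.Agent.TwoF.Witness

/-!
The `2F` bound for groups without section `S₃` whose composition factors are Suzuki groups or
`PSL(2, 3^odd)`.
-/

set_option autoImplicit false
set_option linter.unusedSectionVars false

namespace Cfsg.Agent.TwoF

open Subgroup
open Cfsg.Agent.CF (fixSub)

universe u

variable {G : Type u} [Group G] [Finite G] {M : Type u} [CommGroup M] [Finite M]

/-- `|A|² |C_M(A)| ≤ |M|` and `|A|² ≤ |[M, A]|`. -/
theorem two_f (φ : G →* MulAut M) (hinj : Function.Injective φ) (hM : ∀ m : M, m * m = 1)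
    (hO : Cfsg.pCore 2 G = ⊥) (hS3 : ¬ Cfsg.Involves (Equiv.Perm (Fin 3)) G)
    (hc : Cfsg.IsCompositionKGroupWith Cfsg.IsSuzukiOrPSL2OddPowerThree G)
    (A : Subgroup G) (hAc : ∀ a ∈ A, ∀ b ∈ A, a * b = b * a) (hA2 : ∀ a ∈ A, a * a = 1) :
    Nat.card A ^ 2 * Nat.card (fixSub φ A) ≤ Nat.card M ∧
      Nat.card A ^ 2 ≤ Nat.card (commSub φ A) :=
  ⟨card_sq_mul_fix_le φ hinj hM hS3 (wit_exists hO hc) A hAc hA2,
    card_sq_le_commSub φ hinj hM hS3 (wit_exists hO hc) A hAc hA2⟩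

/-- The internal form: `G` acting by conjugation on the subgroup `M`. -/
theorem two_f_conj {L : Type u} [Group L] [Finite L] (M G : Subgroup L)
    (hM : Cfsg.IsElementaryAbelian 2 M) (hGM : G ≤ normalizer (M : Set L))
    (hf : G ⊓ centralizer (M : Set L) = ⊥) (ha : Cfsg.pCore 2 ↥G = ⊥)
    (hb : ¬ Cfsg.Involves (Equiv.Perm (Fin 3)) ↥G)
    (hc : Cfsg.IsCompositionKGroupWith Cfsg.IsSuzukiOrPSL2OddPowerThree ↥G) (A : Subgroup L)
    (hA : A ≤ G) (hAe : Cfsg.IsElementaryAbelian 2 A) :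
    Nat.card A ^ 2 * Nat.card ↥(M ⊓ centralizer (A : Set L)) ≤ Nat.card M ∧
      Nat.card A ^ 2 ≤ Nat.card ↥⁅M, A⁆ := by
  letI : CommGroup M :=
    { (inferInstance : Group M) with mul_comm := fun a b => hM.1.is_comm.comm a b }
  let φ : G →* MulAut M := Subgroup.normalizerMonoidHom M |>.comp (inclusion hGM)
  have happ : ∀ (g : G) (m : M), ((φ g m : M) : L) = (g : L) * m * (g : L)⁻¹ := fun g m => rfl
  have hinj : Function.Injective φ := by
    refine (injective_iff_map_eq_one φ).2 fun g hg => Subtype.ext (Subgroup.mem_bot.1 (hf.le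
      ⟨g.2, mem_centralizer_iff.2 fun m hm => ?_⟩))
    have h1 := happ g ⟨m, hm⟩
    rw [hg] at h1
    exact (mul_inv_eq_iff_eq_mul.1 h1.symm).symm
  have hM2 : ∀ m : M, m * m = 1 := fun m => Subtype.ext (by
    show (m : L) * m = 1
    rw [← sq]; exact hM.2 m m.2)
  set A' := A.subgroupOf G with hA'
  have hcardA : Nat.card A' = Nat.card A := Nat.card_congr (subgroupOfEquivOfLe hA).toEquiv
  have hAc : ∀ a ∈ A', ∀ b ∈ A', a * b = b * a := fun a ha b hb =>
    Subtype.ext (congrArg Subtype.val (hAe.1.is_comm.comm (⟨a, ha⟩ : A) ⟨b, hb⟩) :)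
  have hA2 : ∀ a ∈ A', a * a = 1 := fun a ha => Subtype.ext (by
    show (a : L) * a = 1
    rw [← sq]; exact hAe.2 _ ha)
  obtain ⟨h1, h2⟩ := two_f φ hinj hM2 ha hb hc A' hAc hA2
  have hfix : (fixSub φ A').map M.subtype = M ⊓ centralizer (A : Set L) := by
    refine le_antisymm ?_ fun m hm => ⟨⟨m, hm.1⟩, fun a ha' => Subtype.ext ?_, rfl⟩
    · rintro _ ⟨m, hm, rfl⟩
      refine ⟨m.2, mem_centralizer_iff.2 fun a ha' => ?_⟩
      have h3 := congrArg Subtype.val (hm ⟨a, hA ha'⟩ ha')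
      exact mul_inv_eq_iff_eq_mul.1 h3
    · rw [happ]
      exact mul_inv_eq_iff_eq_mul.2 (mem_centralizer_iff.1 hm.2 _ ha')
  have hcomm : (commSub φ A').map M.subtype ≤ ⁅M, A⁆ := by
    simp only [commSub, Subgroup.map_iSup]
    refine iSup₂_le fun a ha' => ?_
    rintro _ ⟨_, ⟨m, rfl⟩, rfl⟩
    show ((φ a m * m⁻¹ : M) : L) ∈ ⁅M, A⁆
    rw [Subgroup.coe_mul, Subgroup.coe_inv, happ, Subgroup.commutator_comm]
    exact commutator_mem_commutator ha' m.2
  rw [← card_map_of_injective M.subtype_injective, hfix, hcardA] at h1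
  rw [← card_map_of_injective M.subtype_injective, hcardA] at h2
  exact ⟨h1, h2.trans (card_le_of_le hcomm)⟩

end Cfsg.Agent.TwoF
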