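import Cfsg.Agent.TwoF.Step

/-!
The dual module: from the bound on fixed points to the bound on commutators.
-/

set_option autoImplicit false
set_option linter.unusedSectionVars false

namespace Cfsg.Agent.TwoF

open Subgroup
open Cfsg.Agent.CF (fixSub apply_mul)
open Cfsg.Agent.FusionAux.NoOffender (delta delta_apply)

universe u

variable {G : Type u} [Group G] {M : Type u} [CommGroup M]

/-- The subgroup generated by the elements `a m / m`. -/
def commSub (φ : G →* MulAut M) (A : Subgroup G) : Subgroup M :=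
  ⨆ a ∈ A, (delta φ a).range

/-- The action on the linear characters. -/
noncomputable def dualHom (φ : G →* MulAut M) : G →* MulAut (M →* ℂˣ) where
  toFun g :=
    { toFun := fun f => f.comp (φ g⁻¹).toMonoidHom
      invFun := fun f => f.comp (φ g).toMonoidHom
      left_inv := fun f => MonoidHom.ext fun m => by
        show f (φ g⁻¹ (φ g m)) = f m
        rw [← apply_mul, inv_mul_cancel, map_one]; rfl
      right_inv := fun f => MonoidHom.ext fun m => by
        show f (φ g (φ g⁻¹ m)) = f m
        rw [← apply_mul, mul_inv_cancel, map_one]; rfl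
      map_mul' := fun f f' => MonoidHom.ext fun m => rfl }
  map_one' := MulEquiv.ext fun f => MonoidHom.ext fun m => by
    show f (φ (1 : G)⁻¹ m) = f m
    rw [inv_one, map_one]; rfl
  map_mul' g h := MulEquiv.ext fun f => MonoidHom.ext fun m => by
    show f (φ (g * h)⁻¹ m) = f (φ h⁻¹ (φ g⁻¹ m))
    rw [mul_inv_rev, apply_mul]

theorem dualHom_apply (φ : G →* MulAut M) (g : G) (f : M →* ℂˣ) (m : M) :
    dualHom φ g f m = f (φ g⁻¹ m) := rfl

variable [Finite M]

theorem dualHom_injective (φ : G →* MulAut M) (hinj : Function.Injective φ) :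
    Function.Injective (dualHom φ) := by
  refine (injective_iff_map_eq_one _).2 fun g hg => inv_eq_one.1 ((injective_iff_map_eq_one φ).1 hinj _
    (MulEquiv.ext fun m => ?_))
  refine (CommGroup.forall_apply_eq_apply_iff M (M := ℂ)).1 fun f => ?_
  exact DFunLike.congr_fun (DFunLike.congr_fun hg f) m

theorem fixSub_dualHom (φ : G →* MulAut M) (A : Subgroup G) :
    fixSub (dualHom φ) A = (MonoidHom.domRestrictHom (commSub φ A) ℂˣ).ker := by
  ext f
  rw [MonoidHom.mem_ker]
  constructor
  · intro hf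
    have h : commSub φ A ≤ f.ker := by
      refine iSup₂_le fun a ha => ?_
      rintro _ ⟨m, rfl⟩
      have h1 := DFunLike.congr_fun (hf a⁻¹ (A.inv_mem ha)) m
      rw [dualHom_apply, inv_inv] at h1
      rw [MonoidHom.mem_ker, delta_apply, map_mul, map_inv, h1, mul_inv_cancel]
    exact MonoidHom.ext fun x => h x.2
  · intro hf a ha
    refine MonoidHom.ext fun m => ?_
    rw [dualHom_apply]
    have h1 : f (delta φ a⁻¹ m) = 1 :=
      DFunLike.congr_fun hf ⟨delta φ a⁻¹ m, le_iSup₂_of_le (f := fun b _ => (delta φ b).range) a⁻¹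
        (A.inv_mem ha) le_rfl ⟨m, rfl⟩⟩
    rw [delta_apply, map_mul, map_inv f, mul_inv_eq_one] at h1
    exact h1

theorem card_fixSub_dualHom (φ : G →* MulAut M) (A : Subgroup G) :
    Nat.card (fixSub (M := M →* ℂˣ) (dualHom φ) A) * Nat.card (commSub φ A) = Nat.card M := by
  rw [fixSub_dualHom, CommGroup.card_domRestrictHom_ker,
    ← Subgroup.card_eq_card_quotient_mul_card_subgroup]

variable [Finite G]

theorem card_sq_le_commSub (φ : G →* MulAut M) (hinj : Function.Injective φ)
    (hM : ∀ m : M, m * m = 1) (hS3 : ¬ Cfsg.Involves (Equiv.Perm (Fin 3)) G)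
    (hwit : ∀ A : Subgroup G, A ≠ ⊥ → (∀ a ∈ A, ∀ b ∈ A, a * b = b * a) →
      (∀ a ∈ A, a * a = 1) → Wit A)
    (A : Subgroup G) (hAc : ∀ a ∈ A, ∀ b ∈ A, a * b = b * a) (hA2 : ∀ a ∈ A, a * a = 1) :
    Nat.card A ^ 2 ≤ Nat.card (commSub φ A) := by
  haveI : Finite (M →* ℂˣ) :=
    Finite.of_equiv M (CommGroup.monoidHom_mulEquiv_of_hasEnoughRootsOfUnity M ℂ).some.symm.toEquiv
  have h := card_sq_mul_fix_le (M := M →* ℂˣ) (dualHom φ) (dualHom_injective φ hinj)
    (fun f => MonoidHom.ext fun m => show f m * f m = 1 by rw [← map_mul, hM, map_one])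
    hS3 hwit A hAc hA2
  rw [CommGroup.card_monoidHom_of_hasEnoughRootsOfUnity M ℂ, ← card_fixSub_dualHom φ A,
    mul_comm (Nat.card _) (Nat.card (commSub φ A))] at h
  exact Nat.le_of_mul_le_mul_right h Nat.card_pos

end Cfsg.Agent.TwoF
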