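import Cfsg.Agent.TwoF.Step
import Cfsg.Agent.Signalizer.Generation
import Cfsg.Agent.TTLink.M22FiveSylow

/-!
Elements inverted by an elementary abelian 2-group: inside an odd-order subgroup, and as products
over the conjugates of a subgroup that commutes with its other conjugates.
-/

set_option autoImplicit false
set_option linter.unusedSectionVars false
set_option linter.style.haveILetI false

namespace Cfsg.Agent.TwoF

open Subgroup
open scoped IsMulCommutative

universe u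

variable {G : Type u} [Group G] [Finite G]

theorem elemAb {A : Subgroup G} (hAc : ∀ a ∈ A, ∀ b ∈ A, a * b = b * a)
    (hA2 : ∀ a ∈ A, a * a = 1) : Cfsg.IsElementaryAbelian 2 A :=
  ⟨⟨⟨fun x y => Subtype.ext (hAc x x.2 y y.2)⟩⟩, fun a ha => by rw [sq]; exact hA2 a ha⟩

theorem inv_eq_self {A : Subgroup G} (hA2 : ∀ a ∈ A, a * a = 1) {a : G} (ha : a ∈ A) : a⁻¹ = a :=
  inv_eq_of_mul_eq_one_right (hA2 a ha)

/-- An odd-order subgroup that is normalised but not centralised gives a witness. -/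
theorem wit_of_odd_subgroup {A X : Subgroup G} (hAc : ∀ a ∈ A, ∀ b ∈ A, a * b = b * a)
    (hA2 : ∀ a ∈ A, a * a = 1) (hAX : A ≤ normalizer (X : Set G)) (hodd : Odd (Nat.card X))
    (hnc : ¬ A ≤ centralizer (X : Set G)) : Wit A := by
  haveI : Fact (Nat.Prime 2) := ⟨Nat.prime_two⟩
  obtain ⟨B, hBA, hidx, f, hf, hfA⟩ : ∃ B : Subgroup G, B ≤ A ∧ B.relIndex A ≤ 2 ∧
      ∃ f ∈ X ⊓ centralizer (B : Set G), f ∉ centralizer (A : Set G) := by
    by_contra hcon
    push Not at hcon
    refine hnc (le_centralizer_iff.1 (Signalizer.le_of_forall_hyperplane (elemAb hAc hA2) hAX ?_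
      fun B hB hi f hf => hcon B hB hi f hf))
    rw [← even_iff_two_dvd]; exact Nat.not_even_iff_odd.2 hodd
  obtain ⟨a, ha, hne⟩ : ∃ a ∈ A, a * f ≠ f * a := by
    by_contra h
    push Not at h
    exact hfA (mem_centralizer_iff.2 h)
  have hfB := mem_centralizer_iff.1 hf.2
  have hcard : Nat.card A ≤ 2 * Nat.card B := by
    have h2 : Nat.card B * B.relIndex A = Nat.card A := by
      rw [← relIndex_bot_left, relIndex_mul_relIndex _ _ _ bot_le hBA, relIndex_bot_left]
    rw [← h2, mul_comm 2]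
    exact Nat.mul_le_mul_left _ hidx
  have haf : a * f * a⁻¹ ∈ X := le_normalizer_iff.1 hAX a ha f hf.1
  refine wit_of_inverted (v := f⁻¹ * (a * f * a⁻¹)) hBA ha hcard ?_ ?_ ?_ ?_
  · intro h
    apply hne
    rw [inv_mul_eq_one] at h
    conv_rhs => rw [h]
    rw [inv_mul_cancel_right]
  · exact hodd.of_dvd_nat (Subgroup.orderOf_dvd_natCard X (X.mul_mem (X.inv_mem hf.1) haf))
  · intro b hb
    have h1 : Commute b f := hfB b hb
    have h2 : Commute b a := hAc b (hBA hb) a ha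
    exact (h1.inv_right.mul_right ((h2.mul_right h1).mul_right h2.inv_right)).symm.eq
  · simp only [inv_eq_self hA2 ha]
    calc a * (f⁻¹ * (a * f * a)) * a = a * f⁻¹ * a * f * (a * a) := by group
      _ = a * f⁻¹ * a * f := by rw [hA2 a ha, mul_one]
      _ = (f⁻¹ * (a⁻¹ * f * a⁻¹))⁻¹ := by group
      _ = (f⁻¹ * (a * f * a))⁻¹ := by rw [inv_eq_self hA2 ha]

/-- A complement in an elementary abelian group. -/
theorem exists_complement {A A₀ : Subgroup G} (hAc : ∀ a ∈ A, ∀ b ∈ A, a * b = b * a)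
    (hA2 : ∀ a ∈ A, a * a = 1) (h0 : A₀ ≤ A) :
    ∃ T : Subgroup G, T ≤ A ∧ T ⊓ A₀ = ⊥ ∧ A ≤ T ⊔ A₀ ∧
      Nat.card A ≤ Nat.card T * Nat.card A₀ := by
  obtain ⟨T, ⟨hTA, hT⟩, hmax⟩ := Set.Finite.exists_maximal
    (s := {T : Subgroup G | T ≤ A ∧ T ⊓ A₀ = ⊥}) (Set.toFinite _) ⟨⊥, bot_le, bot_inf_eq A₀⟩
  have hle : A ≤ T ⊔ A₀ := by
    intro a ha
    by_contra hna
    have hTa : T ⊔ zpowers a ≤ A := sup_le hTA (zpowers_le.2 ha)
    have hn : zpowers a ≤ normalizer (T : Set G) := le_normalizer_iff.2 fun x hx y hy => by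
      rw [hAc x (zpowers_le.2 ha hx) y (hTA hy), mul_inv_cancel_right]; exact hy
    have hbot : (T ⊔ zpowers a) ⊓ A₀ = ⊥ := by
      refine eq_bot_iff.2 fun z hz => ?_
      have hz1 : z ∈ T ⊔ zpowers a := hz.1
      have hz2 : z ∈ A₀ := hz.2
      rw [← SetLike.mem_coe, sup_comm,
        coe_mul_of_left_le_normalizer_right (zpowers a) T hn] at hz1
      obtain ⟨x, hx, y, hy, rfl⟩ := hz1
      obtain ⟨i, rfl⟩ := mem_zpowers_iff.1 hx
      have hsq : a ^ (2 : ℤ) = 1 := by rw [zpow_two, hA2 a ha]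
      rcases Int.emod_two_eq_zero_or_one i with hi | hi
      · have : a ^ i = 1 := by
          obtain ⟨j, rfl⟩ := Int.dvd_of_emod_eq_zero hi
          rw [zpow_mul, hsq, one_zpow]
        simp only [this, one_mul] at hz2 ⊢
        exact hT.le ⟨hy, hz2⟩
      · exfalso
        have : a ^ i = a := by
          rw [← Int.emod_add_mul_ediv i 2, hi, zpow_add, zpow_one, zpow_mul, hsq, one_zpow, mul_one]
        simp only [this] at hz2
        apply hna
        rw [show a = a * y * y⁻¹ by group]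
        exact mul_mem (mem_sup_right hz2) (mem_sup_left (T.inv_mem hy))
    exact hna (mem_sup_left (hmax ⟨hTa, hbot⟩ le_sup_left (mem_sup_right (mem_zpowers a))))
  refine ⟨T, hTA, hT, hle, ?_⟩
  rw [← TTLink.card_sup_commute (fun x hx y hy => hAc x (hTA hx) y (h0 hy)) hT]
  exact card_le_of_le hle

/-- Products over the conjugates of `x` under `T`: the abelian group they generate. -/
def conjClosure (T : Subgroup G) (x : G) : Subgroup G :=
  closure (Set.range fun t : T => (t : G) * x * (t : G)⁻¹)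

theorem mem_conjClosure {T : Subgroup G} (x : G) {t : G} (ht : t ∈ T) :
    t * x * t⁻¹ ∈ conjClosure T x :=
  subset_closure ⟨⟨t, ht⟩, rfl⟩

theorem commute_of_conjClosure {T : Subgroup G} {x : G}
    (h : ∀ t ∈ T, t ≠ 1 → Commute (t * x * t⁻¹) x) {u v : G} (hu : u ∈ conjClosure T x)
    (hv : v ∈ conjClosure T x) : Commute u v := by
  have key : ∀ s t : T, Commute ((s : G) * x * (s : G)⁻¹) ((t : G) * x * (t : G)⁻¹) := by
    intro s t
    rcases eq_or_ne s t with rfl | hst
    · exact Commute.refl _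
    have h1 := (h ((t : G)⁻¹ * s) (T.mul_mem (T.inv_mem t.2) s.2) fun he =>
      hst (Subtype.ext (inv_mul_eq_one.1 he)).symm).map (MulAut.conj (t : G))
    simp only [MulAut.conj_apply] at h1
    rwa [show (t : G) * ((t : G)⁻¹ * s * x * ((t : G)⁻¹ * s)⁻¹) * (t : G)⁻¹ =
      (s : G) * x * (s : G)⁻¹ by group] at h1
  induction hu, hv using closure_induction₂ with
  | mem u v hu hv => obtain ⟨s, rfl⟩ := hu; obtain ⟨t, rfl⟩ := hv; exact key s t
  | one_left => exact Commute.one_left _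
  | one_right => exact Commute.one_right _
  | mul_left _ _ _ _ _ _ h1 h2 => exact h1.mul_left h2
  | mul_right _ _ _ _ _ _ h1 h2 => exact h1.mul_right h2
  | inv_left _ _ _ _ h1 => exact h1.inv_left
  | inv_right _ _ _ _ h1 => exact h1.inv_right

/-- The product of the conjugates of `x` under `T`. -/
theorem exists_conjProd {T : Subgroup G} {x : G}
    (h : ∀ t ∈ T, t ≠ 1 → Commute (t * x * t⁻¹) x) :
    ∃ P ∈ conjClosure T x,
      (∀ s ∈ T, s * P * s⁻¹ = P) ∧
      (∀ g : G, (∀ t ∈ T, g * t = t * g) → g * x * g⁻¹ = x → g * P * g⁻¹ = P) ∧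
      (∀ g : G, (∀ t ∈ T, g * t = t * g) → g * x * g⁻¹ = x⁻¹ → g * P * g⁻¹ = P⁻¹) ∧
      (∀ n : ℕ, x ^ n = 1 → P ^ n = 1) ∧
      (∀ k : G, (∀ t ∈ T, t ≠ 1 → Commute (t * x * t⁻¹) k) → P * k * P⁻¹ = x * k * x⁻¹) := by
  classical
  haveI : Fintype T := Fintype.ofFinite T
  set D := conjClosure T x
  haveI : IsMulCommutative D :=
    ⟨⟨fun u v => Subtype.ext (commute_of_conjClosure h u.2 v.2).eq⟩⟩
  let d : ↥T → ↥D := fun t => ⟨(t : G) * x * (t : G)⁻¹, mem_conjClosure x t.2⟩
  refine ⟨((∏ t, d t : D) : G), (∏ t, d t).2, ?_, ?_, ?_, ?_, ?_⟩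
  · intro s hs
    have hD : ∀ v : D, s * (v : G) * s⁻¹ ∈ D := by
      intro v
      have : D ≤ D.comap (MulAut.conj s).toMonoidHom := (closure_le _).2 (by
        rintro _ ⟨t, rfl⟩
        show s * ((t : G) * x * (t : G)⁻¹) * s⁻¹ ∈ D
        rw [show s * ((t : G) * x * (t : G)⁻¹) * s⁻¹ = (s * t) * x * (s * t)⁻¹ by group]
        exact mem_conjClosure x (T.mul_mem hs t.2))
      exact this v.2
    let ψ : D →* D := ((MulAut.conj s).toMonoidHom.comp D.subtype).codRestrict D hD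
    show ((ψ (∏ t, d t) : D) : G) = ((∏ t, d t : D) : G)
    rw [map_prod]
    congr 1
    exact Fintype.prod_equiv (Equiv.mulLeft ⟨s, hs⟩) _ _ fun t => Subtype.ext (by
      show s * ((t : G) * x * (t : G)⁻¹) * s⁻¹ = (s * t) * x * (s * t)⁻¹
      group)
  · intro g hg hgx
    have hgd : ∀ t : T, g * (d t : G) * g⁻¹ = d t := fun t => by
      show g * ((t : G) * x * (t : G)⁻¹) * g⁻¹ = (t : G) * x * (t : G)⁻¹
      rw [← mul_assoc, ← mul_assoc, hg t t.2, show (t : G) * g * x * (t : G)⁻¹ * g⁻¹ =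
        (t : G) * g * x * (g * t)⁻¹ by group, hg t t.2,
        show (t : G) * g * x * ((t : G) * g)⁻¹ = (t : G) * (g * x * g⁻¹) * (t : G)⁻¹ by group, hgx]
    have : D ≤ centralizer ({g} : Set G) := (closure_le _).2 (by
      rintro _ ⟨t, rfl⟩
      exact mem_centralizer_singleton_iff.2 (mul_inv_eq_iff_eq_mul.1 (hgd t)).symm)
    exact mul_inv_eq_iff_eq_mul.2 (mem_centralizer_singleton_iff.1 (this (∏ t, d t : D).2)).symm
  · intro g hg hgx
    have hgd : ∀ t : T, g * (d t : G) * g⁻¹ = (d t : G)⁻¹ := fun t => by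
      show g * ((t : G) * x * (t : G)⁻¹) * g⁻¹ = ((t : G) * x * (t : G)⁻¹)⁻¹
      rw [← mul_assoc, ← mul_assoc, hg t t.2, show (t : G) * g * x * (t : G)⁻¹ * g⁻¹ =
        (t : G) * g * x * (g * t)⁻¹ by group, hg t t.2,
        show (t : G) * g * x * ((t : G) * g)⁻¹ = (t : G) * (g * x * g⁻¹) * (t : G)⁻¹ by group, hgx]
      group
    have hD : ∀ v : D, g * (v : G) * g⁻¹ ∈ D := by
      intro v
      have : D ≤ D.comap (MulAut.conj g).toMonoidHom := (closure_le _).2 (by
        rintro _ ⟨t, rfl⟩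
        show g * (d t : G) * g⁻¹ ∈ D
        rw [hgd t]
        exact D.inv_mem (d t).2)
      exact this v.2
    let ψ : D →* D := ((MulAut.conj g).toMonoidHom.comp D.subtype).codRestrict D hD
    show ((ψ (∏ t, d t) : D) : G) = (((∏ t, d t : D)⁻¹ : D) : G)
    rw [map_prod, ← Finset.prod_inv_distrib]
    congr 1
    exact Finset.prod_congr rfl fun t _ => Subtype.ext (hgd t)
  · intro n hn
    have hd : ∀ t : T, d t ^ n = 1 := fun t => Subtype.ext (by
      show ((t : G) * x * (t : G)⁻¹) ^ n = 1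
      rw [conj_pow, hn, mul_one, mul_inv_cancel])
    rw [← Subgroup.coe_pow, ← Finset.prod_pow, Finset.prod_eq_one fun t _ => hd t,
      Subgroup.coe_one]
  · intro k hk
    have hrest : (((∏ t ∈ Finset.univ.erase (1 : T), d t) : D) : G) ∈ centralizer ({k} : Set G) :=
      (mem_subgroupOf (H := centralizer ({k} : Set G)) (K := D)).1 (prod_mem fun t ht =>
        mem_subgroupOf.2 (mem_centralizer_singleton_iff.2
          (hk t t.2 fun h1 => Finset.ne_of_mem_erase ht (Subtype.ext h1)).eq))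
    rw [← Finset.mul_prod_erase _ _ (Finset.mem_univ (1 : T)), Subgroup.coe_mul,
      show (d 1 : G) = x by simp [d]]
    rw [mul_inv_rev, mul_assoc x, mem_centralizer_singleton_iff.1 hrest]
    group

end Cfsg.Agent.TwoF
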