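import Cfsg.Agent.CF.Offender
import Cfsg.Agent.OffThm.Basic
import Cfsg.Agent.SporB.SymThree
import Mathlib.GroupTheory.FiniteAbelian.Duality
import Mathlib.Analysis.Complex.Polynomial.Basic

/-!
Inverted elements of odd order and the bound `|A|² |C_M(A)| ≤ |M|` for elementary abelian 2-groups.
-/

set_option autoImplicit false
set_option linter.unusedSectionVars false
set_option linter.style.haveILetI false

namespace Cfsg.Agent.TwoF

open Subgroup
open Cfsg.Agent.CF (fixSub apply_mul exists_fixed fixed_of_sq eq_one_of_fixed_diff)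

universe u

variable {G : Type u} [Group G]

/-- `B ≤ A` of index `2 ^ e`, an element of `A` inverting an element `v` of odd prime order which
`B` centralizes, the prime being large enough relative to `e`. -/
def Wit (A : Subgroup G) : Prop :=
  ∃ (e r : ℕ) (B : Subgroup G) (a v : G), 0 < e ∧ B ≤ A ∧ a ∈ A ∧
    Nat.card A ≤ 2 ^ e * Nat.card B ∧ r.Prime ∧ r ≠ 2 ∧ orderOf v = r ∧
    (∀ b ∈ B, v * b = b * v) ∧ a * v * a⁻¹ = v⁻¹ ∧
    (e = 1 ∨ ∀ k, 0 < k → r ∣ 2 ^ k - 1 → 4 * e ≤ k + 1)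

variable [Finite G]

/-- A section `S₃` from an element of order three inverted by an element of a 2-group. -/
theorem involves_three {a v : G} (ha : a * a = 1) (hv : orderOf v = 3)
    (h : a * v * a⁻¹ = v⁻¹) : Cfsg.Involves (Equiv.Perm (Fin 3)) G := by
  haveI : Fact (Nat.Prime 3) := ⟨Nat.prime_three⟩
  haveI : Fact (Nat.Prime 2) := ⟨Nat.prime_two⟩
  have hv1 : v ≠ 1 := fun h1 => by rw [h1, orderOf_one] at hv; omega
  have h1 : Cfsg.Involves (DihedralGroup 3) G := by
    refine EvenLocal.involves_of_inverted (by norm_num) ?_ ⟨1, by rw [hv, pow_one]⟩ hv1 h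
    obtain ⟨k, hk⟩ := (Nat.dvd_prime_pow Nat.prime_two).1
      (show orderOf a ∣ 2 ^ 1 by rw [pow_one]; exact orderOf_dvd_of_pow_eq_one (by rw [sq, ha]))
    exact ⟨k, hk.2⟩
  exact EvenLocal.involves_congr SporB.dih_perm_three.some h1

/-- A witness from an inverted element of odd order. -/
theorem wit_of_inverted {A B : Subgroup G} {a v : G} (hB : B ≤ A) (ha : a ∈ A)
    (hcard : Nat.card A ≤ 2 * Nat.card B) (hv : v ≠ 1) (hodd : Odd (orderOf v))
    (hc : ∀ b ∈ B, v * b = b * v) (hinv : a * v * a⁻¹ = v⁻¹) : Wit A := by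
  obtain ⟨r, hr, hdvd⟩ := Nat.exists_prime_and_dvd (mt orderOf_eq_one_iff.1 hv)
  refine ⟨1, r, B, a, v ^ (orderOf v / r), one_pos, hB, ha, by simpa using hcard, hr, ?_, ?_,
    fun b hb => ((show Commute v b from hc b hb).pow_left _).eq,
    by rw [← conj_pow, hinv, inv_pow], Or.inl rfl⟩
  · rintro rfl
    exact (Nat.not_even_iff_odd.2 hodd) (even_iff_two_dvd.2 hdvd)
  · exact orderOf_pow_orderOf_div (orderOf_pos v).ne' hdvd

variable {M : Type u} [CommGroup M] [Finite M]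

theorem sq_card_step {e C W U : ℕ} (hW : ∃ i, W = 2 ^ i) (hC : ∃ j, C = 2 ^ j)
    (h1 : C * C ≤ W * U) {k : ℕ} (hk : 4 * e ≤ k + 1) (h2 : 2 ^ k * U ≤ W) :
    2 ^ (2 * e) * C ≤ W := by
  obtain ⟨i, rfl⟩ := hW
  obtain ⟨j, rfl⟩ := hC
  rw [← pow_add]
  refine Nat.pow_le_pow_right two_pos ?_
  have h3 : 2 ^ (2 * j + k) ≤ 2 ^ (2 * i) := by
    calc 2 ^ (2 * j + k) = 2 ^ k * (2 ^ j * 2 ^ j) := by ring
      _ ≤ 2 ^ k * (2 ^ i * U) := Nat.mul_le_mul_left _ h1
      _ = 2 ^ i * (2 ^ k * U) := by ring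
      _ ≤ 2 ^ i * 2 ^ i := Nat.mul_le_mul_left _ h2
      _ = 2 ^ (2 * i) := by ring
  have := (Nat.pow_le_pow_iff_right (by norm_num : 1 < 2)).1 h3
  omega

theorem card_two_pow (hM : ∀ m : M, m * m = 1) (W : Subgroup M) : ∃ i, Nat.card W = 2 ^ i := by
  haveI : Fact (Nat.Prime 2) := ⟨Nat.prime_two⟩
  exact IsPGroup.iff_card.1 fun m =>
    ⟨1, Subtype.ext (by rw [pow_one, Subgroup.coe_pow, sq]; exact hM m)⟩

/-- One step: the index of `C_M(A)` in `C_M(B)` is at least `|A : B|²`. -/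
theorem card_step (φ : G →* MulAut M) (hinj : Function.Injective φ) (hM : ∀ m : M, m * m = 1)
    (hS3 : ¬ Cfsg.Involves (Equiv.Perm (Fin 3)) G) {A : Subgroup G}
    (hAc : ∀ a ∈ A, ∀ b ∈ A, a * b = b * a) (hA2 : ∀ a ∈ A, a * a = 1)
    {e r : ℕ} {B : Subgroup G} {a v : G} (hB : B ≤ A) (ha : a ∈ A) (hr : r.Prime) (hr2 : r ≠ 2)
    (hv : orderOf v = r) (hc : ∀ b ∈ B, v * b = b * v) (hinv : a * v * a⁻¹ = v⁻¹)
    (he : e = 1 ∨ ∀ k, 0 < k → r ∣ 2 ^ k - 1 → 4 * e ≤ k + 1) :
    2 ^ (2 * e) * Nat.card (fixSub φ A) ≤ Nat.card (fixSub φ B) := by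
  classical
  haveI : Fact r.Prime := ⟨hr⟩
  have hodd : Odd (orderOf v) := hv ▸ hr.odd_of_ne_two hr2
  set W := fixSub φ B with hW
  set C := fixSub φ A with hC
  set V := zpowers v with hV
  set U := W ⊓ fixSub φ V with hU
  have hvinv : ∀ b ∈ B, v⁻¹ * b = b * v⁻¹ := fun b hb =>
    (show Commute v b from hc b hb).inv_left.eq
  have hWv : ∀ m ∈ W, φ v m ∈ W := by
    intro m hm b hb
    rw [← apply_mul, ← hc b hb, apply_mul, hm b hb]
  have hfixV : ∀ m, φ v m = m → m ∈ fixSub φ V := by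
    intro m hm g hg
    obtain ⟨i, rfl⟩ := (mem_powers_iff_mem_zpowers).2 hg
    exact CF.fixed_pow φ hm i
  let δ : M →* M :=
    { toFun := fun m => φ v m * m⁻¹
      map_one' := by simp
      map_mul' := fun x y => by rw [map_mul, mul_inv, mul_mul_mul_comm] }
  have hker : ∀ m, δ m = 1 → φ v m = m := fun m h => mul_inv_eq_one.1 h
  set N := W.map δ with hN
  have hNW : N ≤ W := by
    rintro _ ⟨m, hm, rfl⟩
    exact W.mul_mem (hWv m hm) (W.inv_mem hm)
  -- `|W| = |U| |N|`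
  have hWcard : Nat.card W = Nat.card U * Nat.card N := by
    have e1 : U = W ⊓ δ.ker := by
      refine le_antisymm (fun m hm => ⟨hm.1, mul_inv_eq_one.2 (hm.2 v (mem_zpowers v))⟩)
        fun m hm => ⟨hm.1, hfixV m (hker m hm.2)⟩
    have h := relIndex_mul_relIndex ⊥ (W ⊓ δ.ker) W bot_le inf_le_left
    rw [relIndex_bot_left, relIndex_bot_left, inf_relIndex_left] at h
    rw [e1, hN, ← relIndex_ker, h]
  -- `v` moves `W`
  have hNne : N ≠ ⊥ := by
    intro h0
    have hrange : δ.range ≠ ⊥ := by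
      intro h
      have h1 : v ≠ 1 := fun h1 => hr.one_lt.ne' (by rw [← hv, h1, orderOf_one])
      refine h1 (hinj (MulEquiv.ext fun m => ?_))
      rw [map_one]
      exact hker m (Subgroup.mem_bot.1 (h ▸ (⟨m, rfl⟩ : δ m ∈ δ.range)))
    obtain ⟨n, ⟨m, rfl⟩, hn1, hfix⟩ := exists_fixed hM φ B
      (fun x hx y hy => hAc x (hB hx) y (hB hy)) (fun x hx => hA2 x (hB hx)) δ.range (by
        rintro b hb _ ⟨m, rfl⟩
        refine ⟨φ b m, ?_⟩
        show φ v (φ b m) * (φ b m)⁻¹ = φ b (φ v m * m⁻¹)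
        rw [map_mul, map_inv, ← apply_mul, hc b hb, apply_mul]) hrange
    exact hn1 (eq_one_of_fixed_diff hM φ hodd m
      (hker _ (Subgroup.mem_bot.1 (h0 ▸ (⟨_, hfix, rfl⟩ : δ (δ m) ∈ N)))))
  -- `r` divides `|N| - 1`
  obtain ⟨k, hk⟩ := card_two_pow hM N
  have hk0 : 0 < k := by
    rcases Nat.eq_zero_or_pos k with rfl | h
    · exact absurd (Subgroup.card_eq_one.1 (by rw [hk, pow_zero])) hNne
    · exact h
  have hdvd : r ∣ 2 ^ k - 1 := by
    have hNv : ∀ g ∈ V, ∀ n ∈ N, φ g n ∈ N := by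
      suffices h : ∀ i : ℕ, ∀ m ∈ W, φ (v ^ i) (δ m) ∈ N by
        intro g hg
        obtain ⟨i, rfl⟩ := (mem_powers_iff_mem_zpowers).2 hg
        rintro _ ⟨m, hm, rfl⟩
        exact h i m hm
      intro i
      induction i with
      | zero => intro m hm; rw [show φ (v ^ 0) = 1 by rw [pow_zero, map_one]]; exact ⟨m, hm, rfl⟩
      | succ i ih =>
        intro m hm
        rw [pow_succ, apply_mul]
        have : φ v (δ m) = δ (φ v m) := by
          show φ v (φ v m * m⁻¹) = φ v (φ v m) * (φ v m)⁻¹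
          rw [map_mul, map_inv]
        rw [this]
        exact ih _ (hWv m hm)
    letI : MulAction V N :=
      { smul := fun g n => ⟨φ (g : G) n, hNv _ g.2 _ n.2⟩
        one_smul := fun n => Subtype.ext (by show φ ((1 : V) : G) (n : M) = n; simp)
        mul_smul := fun g h n => Subtype.ext (apply_mul φ (g : G) (h : G) (n : M)) }
    have hp : IsPGroup r V := IsPGroup.of_card (n := 1) (by rw [hV, Nat.card_zpowers, hv, pow_one])
    have hmod := hp.card_modEq_card_fixedPoints N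
    have hfp : Nat.card (MulAction.fixedPoints V N) = 1 := by
      rw [Nat.card_eq_one_iff_unique]
      refine ⟨⟨fun x y => ?_⟩, ⟨⟨1, fun g => Subtype.ext (map_one (φ (g : G)))⟩⟩⟩
      have key : ∀ x : MulAction.fixedPoints V N, (x : N) = 1 := by
        rintro ⟨⟨_, m, hm, rfl⟩, hx⟩
        have h := congrArg Subtype.val (hx ⟨v, mem_zpowers v⟩)
        exact Subtype.ext (eq_one_of_fixed_diff hM φ hodd m h)
      exact Subtype.ext ((key x).trans (key y).symm)
    rw [hfp, hk] at hmod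
    exact (Nat.modEq_iff_dvd' Nat.one_le_two_pow).1 hmod.symm
  have hke : 4 * e ≤ k + 1 := by
    rcases he with rfl | h
    · by_contra hlt
      have hk2 : k = 1 ∨ k = 2 := by omega
      rcases hk2 with rfl | rfl
      · exact hr.one_lt.ne' (Nat.dvd_one.1 (by simpa using hdvd))
      · have : r = 3 := ((Nat.prime_dvd_prime_iff_eq hr Nat.prime_three).1 (by simpa using hdvd))
        exact hS3 (involves_three (hA2 a ha) (hv.trans this) hinv)
    · exact h k hk0 hdvd
  -- `|C|² ≤ |W| |U|`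
  have hCW : C ≤ W := fun m hm b hb => hm b (hB hb)
  set C' := C.map (φ v).toMonoidHom with hC'
  have hC'W : C' ≤ W := by rintro _ ⟨m, hm, rfl⟩; exact hWv m (hCW hm)
  have hinf : C ⊓ C' ≤ U := by
    rintro _ ⟨hx, m, hm, rfl⟩
    refine ⟨hWv m (hCW hm), hfixV _ ?_⟩
    have e1 : φ a (φ v m) = φ v m := hx a ha
    have e2 : φ a m = m := hm a ha
    have e3 : a * v = v⁻¹ * a := by rw [← hinv, inv_mul_cancel_right]
    rw [← apply_mul, e3, apply_mul, e2] at e1
    have e4 : φ (v * v) m = m := by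
      rw [apply_mul, ← e1, ← apply_mul, mul_inv_cancel, map_one]; rfl
    show φ v (φ v m) = φ v m
    rw [fixed_of_sq φ hodd e4, fixed_of_sq φ hodd e4]
  have hCC : Nat.card C * Nat.card C ≤ Nat.card W * Nat.card U := by
    have h := Cfsg.Agent.OffThm.card_sup_mul_card_inf  C C'
    have e1 : Nat.card C' = Nat.card C := card_map_of_injective (φ v).injective
    rw [e1] at h
    rw [← h]
    exact Nat.mul_le_mul (card_le_of_le (sup_le hCW hC'W)) (card_le_of_le hinf)
  exact sq_card_step (card_two_pow hM W) (card_two_pow hM C) hCC hke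
    (by rw [hWcard, hk, mul_comm])

/-- The first inequality, given witnesses for all subgroups. -/
theorem card_sq_mul_fix_le (φ : G →* MulAut M) (hinj : Function.Injective φ)
    (hM : ∀ m : M, m * m = 1) (hS3 : ¬ Cfsg.Involves (Equiv.Perm (Fin 3)) G)
    (hwit : ∀ A : Subgroup G, A ≠ ⊥ → (∀ a ∈ A, ∀ b ∈ A, a * b = b * a) →
      (∀ a ∈ A, a * a = 1) → Wit A)
    (A : Subgroup G) (hAc : ∀ a ∈ A, ∀ b ∈ A, a * b = b * a) (hA2 : ∀ a ∈ A, a * a = 1) :
    Nat.card A ^ 2 * Nat.card (fixSub φ A) ≤ Nat.card M := by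
  induction A using WellFoundedLT.induction with
  | _ A ih =>
    by_cases hA : A = ⊥
    · rw [hA, Subgroup.card_bot, one_pow, one_mul]
      exact card_le_card_group _
    obtain ⟨e, r, B, a, v, he0, hB, ha, hcard, hr, hr2, hv, hc, hinv, he⟩ := hwit A hA hAc hA2
    have hne : a ∉ B := by
      intro haB
      have h1 : v⁻¹ = v := by rw [← hinv, ← hc a haB, mul_inv_cancel_right]
      have h2 : v ^ 2 = 1 := by rw [sq]; exact inv_eq_iff_mul_eq_one.1 h1
      rcases (Nat.prime_dvd_prime_iff_eq hr Nat.prime_two).1 (hv ▸ orderOf_dvd_of_pow_eq_one h2)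
        with rfl
      exact hr2 rfl
    have hlt : B < A := lt_of_le_of_ne hB fun h => hne (h ▸ ha)
    have h1 := ih B hlt (fun x hx y hy => hAc x (hB hx) y (hB hy)) fun x hx => hA2 x (hB hx)
    have h2 := card_step φ hinj hM hS3 hAc hA2 hB ha hr hr2 hv hc hinv he
    calc Nat.card A ^ 2 * Nat.card (fixSub φ A)
        ≤ (2 ^ e * Nat.card B) ^ 2 * Nat.card (fixSub φ A) := by gcongr
      _ = Nat.card B ^ 2 * (2 ^ (2 * e) * Nat.card (fixSub φ A)) := by ring
      _ ≤ Nat.card B ^ 2 * Nat.card (fixSub φ B) := Nat.mul_le_mul_left _ h2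
      _ ≤ _ := h1

end Cfsg.Agent.TwoF
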